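import Cfsg.Agent.Lib.FH.Core

set_option linter.unusedSimpArgs false
set_option linter.unusedSectionVars false

/-! Feit--Higman: the two-generator quadratic algebra. -/

namespace Cfsg.Agent.Lib.FH

section Alg
variable {R : Type*} [Ring R] [Algebra ℝ R] {A B : R} {q₁ q₂ : ℝ}

/-- The central element. -/
noncomputable def uU (A B : R) (q₁ q₂ : ℝ) : R :=
  A * B + B * A - (q₁ - 1) • B - (q₂ - 1) • A + ((q₁ - 1) * (q₂ - 1)) • 1

section
variable (hA : A * A = q₁ • 1 + (q₁ - 1) • A) (hB : B * B = q₂ • 1 + (q₂ - 1) • B)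
include hA hB

theorem hAA' (x : R) : x * A * A = q₁ • x + (q₁ - 1) • (x * A) := by
  rw [mul_assoc, hA]; simp [mul_add]

theorem hBB' (x : R) : x * B * B = q₂ • x + (q₂ - 1) • (x * B) := by
  rw [mul_assoc, hB]; simp [mul_add]

theorem z_sq : A * B * (A * B) = uU A B q₁ q₂ * (A * B) - (q₁ * q₂) • 1 := by
  have a1 := hAA' hA hB
  have b1 := hBB' hA hB
  simp only [uU, mul_add, add_mul, mul_sub, sub_mul, smul_mul_assoc, mul_smul_comm, mul_one,
    one_mul, ← mul_assoc, hA, hB, a1, b1, smul_add, smul_sub, smul_smul]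
  module

theorem z'_sq : B * A * (B * A) = uU A B q₁ q₂ * (B * A) - (q₁ * q₂) • 1 := by
  have a1 := hAA' hA hB
  have b1 := hBB' hA hB
  simp only [uU, mul_add, add_mul, mul_sub, sub_mul, smul_mul_assoc, mul_smul_comm, mul_one,
    one_mul, ← mul_assoc, hA, hB, a1, b1, smul_add, smul_sub, smul_smul]
  module

theorem aba : A * B * A = uU A B q₁ q₂ * A - q₁ • B + ((q₂ - 1) * q₁) • 1 := by
  have a1 := hAA' hA hB
  have b1 := hBB' hA hB
  simp only [uU, mul_add, add_mul, mul_sub, sub_mul, smul_mul_assoc, mul_smul_comm, mul_one,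
    one_mul, ← mul_assoc, hA, hB, a1, b1, smul_add, smul_sub, smul_smul]
  module

theorem bab : B * A * B = uU A B q₁ q₂ * B - q₂ • A + ((q₁ - 1) * q₂) • 1 := by
  have a1 := hAA' hA hB
  have b1 := hBB' hA hB
  simp only [uU, mul_add, add_mul, mul_sub, sub_mul, smul_mul_assoc, mul_smul_comm, mul_one,
    one_mul, ← mul_assoc, hA, hB, a1, b1, smul_add, smul_sub, smul_smul]
  module

/-- `K² = (U - 1 - Q)(U + q₁ + q₂)` for `K = AB - BA`. -/
theorem k_sq : (A * B - B * A) * (A * B - B * A)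
    = (uU A B q₁ q₂ - (1 + q₁ * q₂) • 1) * (uU A B q₁ q₂ + (q₁ + q₂) • 1) := by
  have a1 := hAA' hA hB
  have b1 := hBB' hA hB
  simp only [uU, mul_add, add_mul, mul_sub, sub_mul, smul_mul_assoc, mul_smul_comm, mul_one,
    one_mul, ← mul_assoc, hA, hB, a1, b1, smul_add, smul_sub, smul_smul]
  module

end

section Odd
variable (hA : A * A = q₁ • 1 + (q₁ - 1) • A) (hB : B * B = q₁ • 1 + (q₁ - 1) • B)
include hA hB

theorem k_sq_odd : (A - B) * (A - B) = (1 + q₁ * q₁) • 1 - uU A B q₁ q₁ := by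
  have a1 := hAA' hA hB
  have b1 := hBB' hA hB
  simp only [uU, mul_add, add_mul, mul_sub, sub_mul, smul_mul_assoc, mul_smul_comm, mul_one,
    one_mul, ← mul_assoc, hA, hB, a1, b1, smul_add, smul_sub, smul_smul]
  module

theorem x1_odd : A * B * A - B * A * B = (uU A B q₁ q₁ + q₁ • 1) * (A - B) := by
  have a1 := hAA' hA hB
  have b1 := hBB' hA hB
  simp only [uU, mul_add, add_mul, mul_sub, sub_mul, smul_mul_assoc, mul_smul_comm, mul_one,
    one_mul, ← mul_assoc, hA, hB, a1, b1, smul_add, smul_sub, smul_smul]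
  module

end Odd

/-- `z^(k+2) = U z^(k+1) - Q z^k`. -/
theorem pow_rec {z U : R} {Q : ℝ} (h : z * z = U * z - Q • 1) (k : ℕ) :
    z ^ (k + 2) = U * z ^ (k + 1) - Q • z ^ k := by
  rw [pow_succ' z (k + 1), pow_succ' z k, ← mul_assoc, h, sub_mul, mul_assoc]
  simp

/-- Even case: `G k * K = z^(k+1) - z'^(k+1)` where `G = gS U Q 0`. -/
theorem gS_even {z z' U : R} {Q : ℝ} (h : z * z = U * z - Q • 1) (h' : z' * z' = U * z' - Q • 1) :
    ∀ k, gS U Q 0 k * (z - z') = z ^ (k + 1) - z' ^ (k + 1)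
  | 0 => by simp [gS]
  | 1 => by
      have e1 : z ^ (1 + 1) = z * z := pow_two z
      have e2 : z' ^ (1 + 1) = z' * z' := pow_two z'
      simp only [gS, zero_smul, add_zero, e1, e2, h, h', mul_sub]
      module
  | k + 2 => by
      have h1 := gS_even h h' (k + 1)
      have h0 := gS_even h h' k
      have e : gS U Q 0 (k + 2) * (z - z')
          = U * (gS U Q 0 (k + 1) * (z - z')) - Q • (gS U Q 0 k * (z - z')) := by
        simp only [gS, sub_mul, mul_assoc, smul_mul_assoc]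
      rw [e, h1, h0, show k + 2 + 1 = (k + 1) + 2 from rfl, pow_rec h (k + 1), pow_rec h' (k + 1)]
      simp only [mul_sub, smul_sub]
      abel

/-- Odd case: `G k * K = z^k a - z'^k b`. -/
theorem gS_odd {z z' U a b : R} {Q t : ℝ} (h : z * z = U * z - Q • 1)
    (h' : z' * z' = U * z' - Q • 1) (h1 : z * a - z' * b = (U + t • 1) * (a - b)) :
    ∀ k, gS U Q t k * (a - b) = z ^ k * a - z' ^ k * b
  | 0 => by simp [gS]
  | 1 => by simpa [gS] using h1.symm
  | k + 2 => by
      have e1 := gS_odd h h' h1 (k + 1)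
      have e0 := gS_odd h h' h1 k
      have e : gS U Q t (k + 2) * (a - b)
          = U * (gS U Q t (k + 1) * (a - b)) - Q • (gS U Q t k * (a - b)) := by
        simp only [gS, sub_mul, mul_assoc, smul_mul_assoc]
      rw [e, e1, e0, pow_rec h k, pow_rec h' k]
      simp only [mul_sub, smul_sub, sub_mul, mul_assoc, smul_mul_assoc]
      abel

end Alg

end Cfsg.Agent.Lib.FH
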