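import Cfsg.Agent.Lib.FH.Key

set_option linter.unusedSimpArgs false
set_option linter.unusedSectionVars false

/-! Feit--Higman: the arithmetic conclusion. -/

namespace Cfsg.Agent.Lib.FH

open Real

/-- Rational recurrence at two roots of one rational quadratic. -/
theorem conj_aS' {x x' : ℝ} {T R Q : ℚ} (hx : x * x = T * x - R) (hx' : x' * x' = T * x' - R) :
    ∀ k, ∃ u v : ℚ, aS (2 * x) Q k = u + v * x ∧ aS (2 * x') Q k = u + v * x'
  | 0 => ⟨0, 0, by simp [aS], by simp [aS]⟩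
  | 1 => ⟨1, 0, by simp [aS], by simp [aS]⟩
  | k + 2 => by
      obtain ⟨u1, v1, h1, h1'⟩ := conj_aS' hx hx' (k + 1)
      obtain ⟨u0, v0, h0, h0'⟩ := conj_aS' hx hx' k
      refine ⟨-2 * v1 * R - Q * u0, 2 * u1 + 2 * v1 * T - Q * v0, ?_, ?_⟩
      · simp only [aS]
        rw [h1, h0]
        push_cast
        linear_combination (2 * (v1 : ℝ)) * hx
      · simp only [aS]
        rw [h1', h0']
        push_cast
        linear_combination (2 * (v1 : ℝ)) * hx'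

theorem aS_nonvanish {r y : ℝ} (hr : 0 < r) (hy : 2 * r ≤ |y|) : ∀ k,
    r * |aS y (r * r) k| ≤ |aS y (r * r) (k + 1)| ∧ aS y (r * r) (k + 1) ≠ 0
  | 0 => by simp [aS]
  | k + 1 => by
      obtain ⟨h1, h2⟩ := aS_nonvanish hr hy k
      have hpos : 0 < |aS y (r * r) (k + 1)| := abs_pos.2 h2
      have e : aS y (r * r) (k + 1 + 1) = y * aS y (r * r) (k + 1) - r * r * aS y (r * r) k := rfl
      have h3 : |y * aS y (r * r) (k + 1)| - |r * r * aS y (r * r) k|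
          ≤ |aS y (r * r) (k + 1 + 1)| := by
        rw [e]; exact abs_sub_abs_le_abs_sub _ _
      rw [abs_mul, abs_mul, abs_mul, abs_of_pos hr] at h3
      have h4 : r * |aS y (r * r) (k + 1)| ≤ |aS y (r * r) (k + 1 + 1)| := by
        nlinarith
      refine ⟨h4, ?_⟩
      intro h0
      rw [h0, abs_zero] at h4
      have : 0 < r * |aS y (r * r) (k + 1)| := by positivity
      linarith

/-- The roots of the recurrence. -/
theorem root_form {r x : ℝ} (hr : 0 < r) {n : ℕ} (hn : 1 ≤ n) (h : aS (2 * x) (r * r) n = 0) :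
    ∃ j : ℕ, 1 ≤ j ∧ j < n ∧ x = r * cos ((j : ℝ) * π / n) := by
  obtain ⟨n₀, rfl⟩ : ∃ n₀, n = n₀ + 1 := ⟨n - 1, by omega⟩
  by_cases hx : r ≤ |x|
  · exfalso
    have : 2 * r ≤ |2 * x| := by
      rw [abs_mul]; simp; linarith
    exact (aS_nonvanish hr this n₀).2 h
  · push Not at hx
    have hx' := abs_lt.1 hx
    set t := x / r with ht
    have ht1 : -1 < t := by rw [ht, lt_div_iff₀ hr]; linarith
    have ht2 : t < 1 := by rw [ht, div_lt_iff₀ hr]; linarith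
    set φ := arccos t with hφ
    have hcos : cos φ = t := Real.cos_arccos ht1.le ht2.le
    have hφ0 : 0 < φ := Real.arccos_pos.2 ht2
    have hφπ : φ < π := Real.arccos_lt_pi.2 ht1
    have hs : 0 < sin φ := Real.sin_pos_of_pos_of_lt_pi hφ0 hφπ
    have hxe : x = r * cos φ := by rw [hcos, ht]; field_simp
    have hcl := aS_closed r φ (n₀ + 1)
    rw [show 2 * r * cos φ = 2 * x by rw [hxe]; ring, h, zero_mul] at hcl
    have hsin : sin (((n₀ + 1 : ℕ) : ℝ) * φ) = 0 :=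
      (mul_eq_zero.1 hcl.symm).resolve_left (by positivity)
    obtain ⟨k, hk⟩ := Real.sin_eq_zero_iff.1 hsin
    have hn0 : (0 : ℝ) < ((n₀ + 1 : ℕ) : ℝ) := by positivity
    have hk0 : (0 : ℝ) < (k : ℝ) * π := by rw [hk]; positivity
    have hk1 : (k : ℝ) * π < ((n₀ + 1 : ℕ) : ℝ) * π := by
      rw [hk]; exact mul_lt_mul_of_pos_left hφπ hn0
    have hpi := Real.pi_pos
    have hk2 : (0 : ℝ) < k := by
      by_contra hle
      push Not at hle
      nlinarith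
    have hk3 : (k : ℝ) < ((n₀ + 1 : ℕ) : ℝ) := lt_of_mul_lt_mul_right hk1 hpi.le
    have hk2' : 0 < k := by exact_mod_cast hk2
    have hk3' : k < ((n₀ + 1 : ℕ) : ℤ) := by exact_mod_cast hk3
    refine ⟨k.toNat, by omega, by omega, ?_⟩
    have e : ((k.toNat : ℕ) : ℝ) = k := by
      have : ((k.toNat : ℕ) : ℤ) = k := Int.toNat_of_nonneg hk2'.le
      exact_mod_cast this
    rw [e, hk, mul_div_cancel_left₀ _ hn0.ne']
    exact hxe

section Even
variable {q₁ q₂ N n : ℕ}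

/-- The sum of two distinct conjugates is negative. -/
theorem sign_lemma (h1 : 2 ≤ q₁) (h2 : 2 ≤ q₂) (hN : 0 < N) {c c' r D₁ : ℝ}
    (hQ : (q₁ : ℝ) * q₂ = r * r) (hne : c ≠ c') (hc : |c| < r) (hc' : |c'| < r)
    (hf : D₁ * ((1 + (q₁ : ℝ) * q₂ - 2 * c) * (2 * c + ((q₁ : ℝ) + q₂)))
      = 4 * (N : ℝ) * ((q₁ : ℝ) * q₂ - c ^ 2))
    (hf' : D₁ * ((1 + (q₁ : ℝ) * q₂ - 2 * c') * (2 * c' + ((q₁ : ℝ) + q₂)))
      = 4 * (N : ℝ) * ((q₁ : ℝ) * q₂ - c' ^ 2)) : c + c' < 0 := by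
  have hq1 : (2 : ℝ) ≤ q₁ := by exact_mod_cast h1
  have hq2 : (2 : ℝ) ≤ q₂ := by exact_mod_cast h2
  have hN0 : (0 : ℝ) < N := by exact_mod_cast hN
  set Q := (q₁ : ℝ) * q₂ with hQdef
  have hcc : c ^ 2 < Q := by rw [hQ, ← pow_two]; exact sq_lt_sq' (abs_lt.1 hc).1 (abs_lt.1 hc).2
  have hcc' : c' ^ 2 < Q := by
    rw [hQ, ← pow_two]; exact sq_lt_sq' (abs_lt.1 hc').1 (abs_lt.1 hc').2
  -- eliminate `D₁` and `N`
  set P : ℝ → ℝ := fun x => (1 + Q - 2 * x) * (2 * x + ((q₁ : ℝ) + q₂)) with hP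
  have hcross : P c * (Q - c' ^ 2) = P c' * (Q - c ^ 2) := by
    have hD : D₁ ≠ 0 := by
      intro h0
      rw [h0, zero_mul] at hf
      have : 0 < 4 * (N : ℝ) * (Q - c ^ 2) := by
        apply mul_pos (by positivity); linarith
      linarith
    apply mul_left_cancel₀ hD
    show D₁ * (((1 + Q - 2 * c) * (2 * c + ((q₁ : ℝ) + q₂))) * (Q - c' ^ 2))
      = D₁ * (((1 + Q - 2 * c') * (2 * c' + ((q₁ : ℝ) + q₂))) * (Q - c ^ 2))
    linear_combination (Q - c' ^ 2) * hf - (Q - c ^ 2) * hf'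
  have hsub : c - c' ≠ 0 := sub_ne_zero.2 hne
  set A := (1 + Q) * ((q₁ : ℝ) + q₂) with hA
  set B := 2 * ((q₁ : ℝ) - 1) * ((q₂ : ℝ) - 1) with hB
  have hBe : 2 * (1 + Q) - 2 * ((q₁ : ℝ) + q₂) = B := by rw [hB, hQdef]; ring
  have hrel : (A - 4 * Q) * (c + c') + B * (Q + c * c') = 0 := by
    apply mul_left_cancel₀ hsub
    have : P c = A + B * c - 4 * c ^ 2 := by simp only [hP]; rw [← hBe, hA]; ring
    have h' : P c' = A + B * c' - 4 * c' ^ 2 := by simp only [hP]; rw [← hBe, hA]; ring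
    rw [this, h'] at hcross
    linear_combination hcross
  have hA4 : 0 < A - 4 * Q := by
    have : (4 : ℝ) ≤ (q₁ : ℝ) + q₂ := by linarith
    have hQ0 : 0 < Q := by positivity
    rw [hA]
    nlinarith
  have hB0 : 0 < B := by
    rw [hB]
    have : (0 : ℝ) < (q₁ : ℝ) - 1 := by linarith
    have : (0 : ℝ) < (q₂ : ℝ) - 1 := by linarith
    positivity
  have hpos : 0 < Q + c * c' := by
    have : |c * c'| < Q := by
      rw [abs_mul, hQ]
      exact mul_lt_mul'' hc hc' (abs_nonneg _) (abs_nonneg _)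
    have := (abs_lt.1 this).1
    linarith
  have hB' : 0 < B * (Q + c * c') := mul_pos hB0 hpos
  by_contra hge
  push Not at hge
  nlinarith [mul_nonneg hA4.le hge]

/-- Existence and properties of the conjugate of an irrational root of the quadratic. -/
theorem exists_conj (h1 : 2 ≤ q₁) (h2 : 2 ≤ q₂) (hN : 0 < N) {c : ℝ} {D₁ : ℕ}
    (hc : Irrational c)
    (hf : (D₁ : ℝ) * ((1 + (q₁ : ℝ) * q₂ - 2 * c) * (2 * c + ((q₁ : ℝ) + q₂)))
      = 4 * (N : ℝ) * ((q₁ : ℝ) * q₂ - c ^ 2))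
    (hQc : c ^ 2 ≠ (q₁ : ℝ) * q₂) :
    ∃ T Rr : ℚ, c * c = T * c - Rr ∧
      (D₁ : ℝ) * ((1 + (q₁ : ℝ) * q₂ - 2 * (T - c)) * (2 * (T - c) + ((q₁ : ℝ) + q₂)))
        = 4 * (N : ℝ) * ((q₁ : ℝ) * q₂ - (T - c) ^ 2) := by
  have hq1 : (2 : ℝ) ≤ q₁ := by exact_mod_cast h1
  have hq2 : (2 : ℝ) ≤ q₂ := by exact_mod_cast h2
  have hN0 : (0 : ℝ) < N := by exact_mod_cast hN
  -- coefficients
  set Q : ℚ := (q₁ : ℚ) * q₂ with hQ
  set A : ℚ := (1 + Q) * ((q₁ : ℚ) + q₂) with hA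
  set B : ℚ := 2 * (1 + Q) - 2 * ((q₁ : ℚ) + q₂) with hB
  set L₂ : ℚ := 4 * N - 4 * D₁ with hL2
  set L₁ : ℚ := D₁ * B with hL1
  set L₀ : ℚ := D₁ * A - 4 * N * Q with hL0
  have hpoly : (L₂ : ℝ) * c ^ 2 + L₁ * c + L₀ = 0 := by
    simp only [hL2, hL1, hL0, hA, hB, hQ]
    push_cast
    linear_combination hf
  have hL2ne : L₂ ≠ 0 := by
    intro h0
    have h3 : (L₁ : ℝ) * c + L₀ = 0 := by
      rw [h0] at hpoly
      simpa using hpoly
    by_cases hL1' : L₁ = 0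
    · -- then `D₁ = 0`
      have hB0 : B ≠ 0 := by
        have : B = 2 * ((q₁ : ℚ) - 1) * ((q₂ : ℚ) - 1) := by rw [hB, hQ]; ring
        rw [this]
        have a1 : (2 : ℚ) ≤ q₁ := by exact_mod_cast h1
        have a2 : (2 : ℚ) ≤ q₂ := by exact_mod_cast h2
        have a3 : (q₁ : ℚ) - 1 ≠ 0 := by intro h; linarith
        have a4 : (q₂ : ℚ) - 1 ≠ 0 := by intro h; linarith
        positivity
      have hD0 : (D₁ : ℚ) = 0 := (mul_eq_zero.1 hL1').resolve_right hB0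
      have hD0' : (D₁ : ℝ) = 0 := by exact_mod_cast hD0
      rw [hD0', zero_mul] at hf
      have : (q₁ : ℝ) * q₂ - c ^ 2 = 0 :=
        (mul_eq_zero.1 hf.symm).resolve_left (by positivity)
      exact hQc (by linarith)
    · apply hc
      refine ⟨-L₀ / L₁, ?_⟩
      have hL1r : (L₁ : ℝ) ≠ 0 := by exact_mod_cast hL1'
      push_cast
      field_simp
      linarith
  have hL2r : (L₂ : ℝ) ≠ 0 := by exact_mod_cast hL2ne
  refine ⟨-L₁ / L₂, L₀ / L₂, ?_, ?_⟩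
  · push_cast
    field_simp
    linear_combination hpoly
  · have hc' : (L₂ : ℝ) * (((-L₁ / L₂ : ℚ) : ℝ) - c) ^ 2 + L₁ * (((-L₁ / L₂ : ℚ) : ℝ) - c) + L₀ = 0 := by
      push_cast
      field_simp
      linear_combination (L₂ : ℝ) * hpoly
    generalize ((-L₁ / L₂ : ℚ) : ℝ) - c = c' at *
    simp only [hL2, hL1, hL0, hA, hB, hQ] at hc'
    push_cast at hc'
    linear_combination hc'

/-- Inductive rationality of the eigenvalues. -/
theorem rat_step (h1 : 2 ≤ q₁) (h2 : 2 ≤ q₂) (hN : 0 < N) (hn : 2 ≤ n)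
    (hkey : ∀ j : ℕ, 1 ≤ j → j < n → ∃ D : ℕ, (D : ℝ) * n *
        ((1 + (q₁ : ℝ) * q₂ - 2 * (√((q₁ : ℝ) * q₂) * cos ((j : ℝ) * π / n)))
        * (2 * (√((q₁ : ℝ) * q₂) * cos ((j : ℝ) * π / n)) + ((q₁ : ℝ) + q₂)))
      = 4 * (N : ℝ) * ((q₁ : ℝ) * q₂ - (√((q₁ : ℝ) * q₂) * cos ((j : ℝ) * π / n)) ^ 2))
    {j : ℕ} (hj1 : 1 ≤ j) (hj2 : 2 * j ≤ n)
    (hind : ∀ i : ℕ, 1 ≤ i → i < j → ∃ ρ : ℚ, √((q₁ : ℝ) * q₂) * cos ((i : ℝ) * π / n) = ρ) :
    ∃ ρ : ℚ, √((q₁ : ℝ) * q₂) * cos ((j : ℝ) * π / n) = ρ := by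
  by_contra hirr
  have hq1 : (2 : ℝ) ≤ q₁ := by exact_mod_cast h1
  have hq2 : (2 : ℝ) ≤ q₂ := by exact_mod_cast h2
  have hQ0 : 0 < (q₁ : ℝ) * q₂ := by positivity
  set r := √((q₁ : ℝ) * q₂) with hr
  have hr0 : 0 < r := Real.sqrt_pos.2 hQ0
  have hQ : (q₁ : ℝ) * q₂ = r * r := (Real.mul_self_sqrt hQ0.le).symm
  have hn0 : (0 : ℝ) < n := by
    have : 0 < n := by omega
    exact_mod_cast this
  have hpi := Real.pi_pos
  have hj0 : j < n := by omega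
  -- bounds for `cos`
  have hang : ∀ i : ℕ, 1 ≤ i → i < n →
      0 < (i : ℝ) * π / n ∧ (i : ℝ) * π / n < π := by
    intro i hi hin
    have hi0 : (0 : ℝ) < i := by exact_mod_cast hi
    have hin' : (i : ℝ) < n := by exact_mod_cast hin
    refine ⟨by positivity, ?_⟩
    rw [div_lt_iff₀ hn0]
    nlinarith
  have hcabs : ∀ i : ℕ, 1 ≤ i → i < n → |r * cos ((i : ℝ) * π / n)| < r := by
    intro i hi hin
    obtain ⟨h3, h4⟩ := hang i hi hin
    have h5 : cos ((i : ℝ) * π / n) < 1 := by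
      have := Real.cos_lt_cos_of_nonneg_of_le_pi le_rfl h4.le h3
      simpa using this
    have h6 : -1 < cos ((i : ℝ) * π / n) := by
      have := Real.cos_lt_cos_of_nonneg_of_le_pi h3.le le_rfl h4
      simpa using this
    rw [abs_mul, abs_of_pos hr0]
    have : |cos ((i : ℝ) * π / n)| < 1 := abs_lt.2 ⟨h6, h5⟩
    nlinarith
  set c := r * cos ((j : ℝ) * π / n) with hc
  have hcirr : Irrational c := by
    rintro ⟨ρ, hρ⟩
    exact hirr ⟨ρ, hρ.symm⟩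
  obtain ⟨D, hD⟩ := hkey j hj1 hj0
  have hcc : c ^ 2 < (q₁ : ℝ) * q₂ := by
    rw [hQ, ← pow_two]
    have := abs_lt.1 (hcabs j hj1 hj0)
    exact sq_lt_sq' this.1 this.2
  have hf : ((D * n : ℕ) : ℝ) * ((1 + (q₁ : ℝ) * q₂ - 2 * c) * (2 * c + ((q₁ : ℝ) + q₂)))
      = 4 * (N : ℝ) * ((q₁ : ℝ) * q₂ - c ^ 2) := by
    push_cast
    exact hD
  obtain ⟨T, Rr, hquad, hf'⟩ := exists_conj h1 h2 hN hcirr hf hcc.ne
  set c' := (T : ℝ) - c with hc'
  have hquad' : c' * c' = T * c' - Rr := by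
    rw [hc']; linear_combination hquad
  obtain ⟨u, v, hu, hu'⟩ := conj_aS' (Q := (q₁ : ℚ) * q₂) hquad hquad' n
  have hcast : (((q₁ : ℚ) * q₂ : ℚ) : ℝ) = r * r := by
    push_cast; exact hQ
  rw [hcast] at hu hu'
  have hzero : aS (2 * c) (r * r) n = 0 := by
    have hcl := aS_closed r ((j : ℝ) * π / n) n
    have e : (n : ℝ) * ((j : ℝ) * π / n) = (j : ℝ) * π := by field_simp
    rw [e, Real.sin_nat_mul_pi, mul_zero] at hcl
    have hsin : sin ((j : ℝ) * π / n) ≠ 0 :=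
      (Real.sin_pos_of_pos_of_lt_pi (hang j hj1 hj0).1 (hang j hj1 hj0).2).ne'
    have : aS (2 * r * cos ((j : ℝ) * π / n)) (r * r) n = 0 :=
      (mul_eq_zero.1 hcl).resolve_right (mul_ne_zero hr0.ne' hsin)
    rw [hc, show 2 * (r * cos ((j : ℝ) * π / n)) = 2 * r * cos ((j : ℝ) * π / n) by ring]
    exact this
  rw [hzero] at hu
  have hv : v = 0 := by
    by_contra hv0
    apply hcirr
    refine ⟨-u / v, ?_⟩
    have hv0' : (v : ℝ) ≠ 0 := by exact_mod_cast hv0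
    push_cast
    field_simp
    linarith
  have hu0 : u = 0 := by
    rw [hv] at hu
    simp at hu
    exact_mod_cast hu.symm
  have hzero' : aS (2 * c') (r * r) n = 0 := by
    rw [hu', hv, hu0]; simp
  obtain ⟨j', hj'1, hj'2, hj'⟩ := root_form hr0 (by omega) hzero'
  have hc'irr : Irrational c' := by
    rintro ⟨ρ, hρ⟩
    apply hcirr
    refine ⟨T - ρ, ?_⟩
    push_cast
    rw [hρ, hc']
    ring
  -- location of `j'`
  have hj'l : j ≤ j' := by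
    by_contra hlt
    push Not at hlt
    obtain ⟨ρ, hρ⟩ := hind j' hj'1 hlt
    exact hc'irr ⟨ρ, by rw [hj', hρ]⟩
  have hcosref : ∀ i : ℕ, i ≤ n → cos (((n - i : ℕ) : ℝ) * π / n) = - cos ((i : ℝ) * π / n) := by
    intro i hi
    have : ((n - i : ℕ) : ℝ) * π / n = π - (i : ℝ) * π / n := by
      rw [Nat.cast_sub hi]
      field_simp
    rw [this, Real.cos_pi_sub]
  have hj'u : j' ≤ n - j := by
    by_contra hlt
    push Not at hlt
    have hi1 : 1 ≤ n - j' := by omega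
    have hi2 : n - j' < j := by omega
    obtain ⟨ρ, hρ⟩ := hind (n - j') hi1 hi2
    apply hc'irr
    refine ⟨-ρ, ?_⟩
    rw [hcosref j' hj'2.le] at hρ
    push_cast
    rw [hj', ← hρ]
    ring
  have hsum : 0 ≤ c + c' := by
    have h3 := hang j' hj'1 hj'2
    have hnj : 1 ≤ n - j := by omega
    have hnj2 : n - j < n := by omega
    have h4 := hang (n - j) hnj hnj2
    have h5 : (j' : ℝ) * π / n ≤ ((n - j : ℕ) : ℝ) * π / n := by
      have : (j' : ℝ) ≤ ((n - j : ℕ) : ℝ) := by exact_mod_cast hj'u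
      gcongr
    have h6 := Real.cos_le_cos_of_nonneg_of_le_pi h3.1.le h4.2.le h5
    rw [hcosref j (by omega)] at h6
    rw [hj', hc]
    nlinarith
  have hne : c ≠ c' := by
    intro he
    apply hcirr
    refine ⟨T / 2, ?_⟩
    push_cast
    rw [hc'] at he
    linarith
  have hneg := sign_lemma (D₁ := ((D * n : ℕ) : ℝ)) h1 h2 hN hQ hne (hcabs j hj1 hj0)
    (by rw [hj']; exact hcabs j' hj'1 hj'2) hf hf'
  linarith

/-- The even case of Feit--Higman: `n ≥ 5` is impossible. -/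
theorem even_final (h1 : 2 ≤ q₁) (h2 : 2 ≤ q₂) (hN : 0 < N) (hn : 5 ≤ n)
    (hkey : ∀ j : ℕ, 1 ≤ j → j < n → ∃ D : ℕ, (D : ℝ) * n *
        ((1 + (q₁ : ℝ) * q₂ - 2 * (√((q₁ : ℝ) * q₂) * cos ((j : ℝ) * π / n)))
        * (2 * (√((q₁ : ℝ) * q₂) * cos ((j : ℝ) * π / n)) + ((q₁ : ℝ) + q₂)))
      = 4 * (N : ℝ) * ((q₁ : ℝ) * q₂ - (√((q₁ : ℝ) * q₂) * cos ((j : ℝ) * π / n)) ^ 2)) :
    False := by
  have hq1 : (2 : ℝ) ≤ q₁ := by exact_mod_cast h1
  have hq2 : (2 : ℝ) ≤ q₂ := by exact_mod_cast h2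
  have hQ0 : 0 < (q₁ : ℝ) * q₂ := by positivity
  have hr0 : 0 < √((q₁ : ℝ) * q₂) := Real.sqrt_pos.2 hQ0
  have rat1 := rat_step (j := 1) h1 h2 hN (by omega) hkey le_rfl (by omega)
    (fun i h3 h4 => absurd h3 (by omega))
  have rat2 := rat_step (j := 2) h1 h2 hN (by omega) hkey (by omega) (by omega)
    (fun i h3 h4 => by
      obtain rfl : i = 1 := by omega
      exact rat1)
  set r := √((q₁ : ℝ) * q₂) with hr
  have hn0 : (0 : ℝ) < n := by
    have : 0 < n := by omega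
    exact_mod_cast this
  set φ := π / (n : ℝ) with hφ
  have hpi := Real.pi_pos
  have e1 : ((1 : ℕ) : ℝ) * π / n = φ := by rw [hφ]; push_cast; ring
  have e2 : ((2 : ℕ) : ℝ) * π / n = 2 * φ := by rw [hφ]; push_cast; ring
  have e3 : ((3 : ℕ) : ℝ) * π / n = 3 * φ := by rw [hφ]; push_cast; ring
  rw [e1] at rat1
  rw [e2] at rat2
  have hn5 : (5 : ℝ) ≤ n := by exact_mod_cast hn
  have hφ0 : 0 < φ := by positivity
  have hφ1 : 2 * φ < π / 2 := by
    have : φ ≤ π / 5 := by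
      rw [hφ]; exact div_le_div_of_nonneg_left hpi.le (by norm_num) hn5
    linarith
  have hc2 : 0 < cos (2 * φ) :=
    Real.cos_pos_of_mem_Ioo ⟨by linarith, hφ1⟩
  have hc1 : 0 < cos φ := Real.cos_pos_of_mem_Ioo ⟨by linarith, by linarith⟩
  -- `cos φ` is irrational
  have hirr : Irrational (cos φ) := by
    have hden : ((n : ℚ)⁻¹).den = n := Rat.inv_natCast_den_of_pos (by omega)
    have := irrational_cos_rat_mul_pi (r := (n : ℚ)⁻¹) (by rw [hden]; omega)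
    have e : (((n : ℚ)⁻¹ : ℚ) : ℝ) * π = φ := by
      rw [hφ]; push_cast; field_simp
    rwa [e] at this
  obtain ⟨ρ₁, hρ₁⟩ := rat1
  obtain ⟨ρ₂, hρ₂⟩ := rat2
  -- it suffices that `r` is rational
  have hfin : ∀ ρ : ℚ, r = ρ → False := by
    intro ρ hρ
    apply hirr
    refine ⟨ρ₁ / ρ, ?_⟩
    push_cast
    rw [← hρ, ← hρ₁]
    field_simp
  have hρ10 : (ρ₁ : ℝ) ≠ 0 := by
    rw [← hρ₁]; positivity
  rw [Real.cos_two_mul] at hρ₂ hc2
  by_cases h5 : n = 5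
  · subst h5
    have hx : cos φ = (1 + √5) / 4 := by
      rw [hφ]
      have := Real.cos_pi_div_five
      push_cast
      exact this
    have hsq5 : √5 * √5 = 5 := Real.mul_self_sqrt (by norm_num)
    have h4 : 2 * cos φ ^ 2 - 1 = cos φ - 1 / 2 := by
      rw [hx]
      nlinarith
    rw [h4] at hρ₂
    apply hfin (2 * (ρ₁ - ρ₂))
    push_cast
    rw [← hρ₁, ← hρ₂]
    ring
  · have rat3 := rat_step (j := 3) h1 h2 hN (by omega) hkey (by omega) (by omega)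
      (fun i h3 h4 => by
        obtain rfl | rfl : i = 1 ∨ i = 2 := by omega
        · rw [e1]; exact ⟨ρ₁, hρ₁⟩
        · rw [e2, Real.cos_two_mul]; exact ⟨ρ₂, hρ₂⟩)
    rw [e3, Real.cos_three_mul] at rat3
    obtain ⟨ρ₃, hρ₃⟩ := rat3
    -- `x²` is rational
    have hw : cos φ ^ 2 = (((ρ₃ / ρ₁ + 3) / 4 : ℚ) : ℝ) := by
      push_cast
      rw [← hρ₃, ← hρ₁]
      field_simp
      ring
    rw [hw] at hρ₂ hc2
    apply hfin (ρ₂ / (2 * ((ρ₃ / ρ₁ + 3) / 4) - 1))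
    have hne : (2 * ((((ρ₃ / ρ₁ + 3) / 4 : ℚ) : ℝ)) - 1) ≠ 0 := hc2.ne'
    have hcast : ((ρ₂ / (2 * ((ρ₃ / ρ₁ + 3) / 4) - 1) : ℚ) : ℝ)
        = (ρ₂ : ℝ) / (2 * ((((ρ₃ / ρ₁ + 3) / 4 : ℚ) : ℝ)) - 1) := by
      push_cast; ring
    rw [hcast, ← hρ₂]
    field_simp

end Even

/-- The odd case of Feit--Higman: `m = 2n+1 ≥ 5` is impossible. -/
theorem odd_final {q N n D : ℕ} (h1 : 2 ≤ q) (hN : 0 < N) (hn : 2 ≤ n)
    (hkey : (D : ℝ) * ((2 * n + 1 : ℕ) : ℝ)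
        * (1 + (q : ℝ) * q - 2 * (q * cos (2 * (π / ((2 * n + 1 : ℕ) : ℝ)))))
      = 4 * (N : ℝ) * (q - q * cos (2 * (π / ((2 * n + 1 : ℕ) : ℝ))))) : False := by
  have hq1 : (2 : ℝ) ≤ q := by exact_mod_cast h1
  have hN0 : (0 : ℝ) < N := by exact_mod_cast hN
  set m := 2 * n + 1 with hm
  have hirr : Irrational (cos (2 * (π / (m : ℝ)))) := by
    have hcop : Nat.Coprime (2 : ℤ).natAbs ((m : ℤ).natAbs) := by
      simp [hm]
    have hden : (((2 : ℤ) : ℚ) / ((m : ℤ) : ℚ)).den = m := by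
      have := Rat.den_div_eq_of_coprime (a := 2) (b := (m : ℤ)) (by positivity) hcop
      exact_mod_cast this
    have := irrational_cos_rat_mul_pi (r := ((2 : ℤ) : ℚ) / ((m : ℤ) : ℚ))
      (by rw [hden]; omega)
    have e : ((((2 : ℤ) : ℚ) / ((m : ℤ) : ℚ) : ℚ) : ℝ) * π = 2 * (π / (m : ℝ)) := by
      push_cast; ring
    rwa [e] at this
  set x := cos (2 * (π / (m : ℝ))) with hx
  have hq0 : (q : ℝ) ≠ 0 := by positivity
  -- linear equation
  have hlin : (q : ℝ) * x * (4 * (N : ℝ) - 2 * (D : ℝ) * m)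
      = 4 * (N : ℝ) * q - (D : ℝ) * m * (1 + (q : ℝ) * q) := by
    linear_combination hkey
  by_cases h0 : 4 * (N : ℝ) - 2 * (D : ℝ) * m = 0
  · rw [h0, mul_zero] at hlin
    have h3 : 2 * ((D : ℝ) * m) = 4 * (N : ℝ) := by linarith
    have h4 : (4 * (N : ℝ)) * (2 * (q : ℝ) - (1 + (q : ℝ) * q)) = 0 := by
      linear_combination (-2) * hlin + (1 + (q : ℝ) * q) * h3
    rcases mul_eq_zero.1 h4 with h5 | h5
    · have : (0 : ℝ) < 4 * (N : ℝ) := by positivity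
      linarith
    · nlinarith [sq_nonneg ((q : ℝ) - 1)]
  · apply hirr
    refine ⟨(4 * N * q - D * m * (1 + q * q)) / (q * (4 * N - 2 * D * m)), ?_⟩
    push_cast
    rw [← hlin]
    field_simp

end Cfsg.Agent.Lib.FH
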