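import Mathlib

/-! Feit--Higman: the linear-algebra core.  Three-term recurrences in a real algebra and the
trace of the idempotent attached to a root of the recurrence. -/

namespace Cfsg.Agent.Lib.FH

section Seq
variable {R : Type*} [Ring R] [Algebra ℝ R]

/-- `G 0 = 1`, `G 1 = U + t`, `G (k+2) = U G (k+1) - Q G k`. -/
noncomputable def gS (U : R) (Q t : ℝ) : ℕ → R
  | 0 => 1
  | 1 => U + t • 1
  | k + 2 => U * gS U Q t (k + 1) - Q • gS U Q t k

/-- `S 0 = 0`, `S 1 = 1`, `S (n+2) = y S (n+1) - Q S n + G (n+1)`. -/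
noncomputable def sS (U : R) (Q t y : ℝ) : ℕ → R
  | 0 => 0
  | 1 => 1
  | k + 2 => y • sS U Q t y (k + 1) - Q • sS U Q t y k + gS U Q t (k + 1)

/-- `a 0 = 0`, `a 1 = 1`, `a (k+2) = y a (k+1) - Q a k`. -/
noncomputable def aS (y Q : ℝ) : ℕ → ℝ
  | 0 => 0
  | 1 => 1
  | k + 2 => y * aS y Q (k + 1) - Q * aS y Q k

/-- `(U - y) S n = G n - g n`. -/
theorem sub_mul_sS (U : R) (Q t y : ℝ) : ∀ n,
    (U - y • 1) * sS U Q t y n = gS U Q t n - (gS y Q t n : ℝ) • (1 : R)
  | 0 => by simp [sS, gS]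
  | 1 => by
      simp only [sS, gS, mul_one, add_smul, smul_eq_mul]
      simp
  | n + 2 => by
      have h1 := sub_mul_sS U Q t y (n + 1)
      have h0 := sub_mul_sS U Q t y n
      have e : (U - y • 1) * sS U Q t y (n + 2)
          = y • ((U - y • 1) * sS U Q t y (n + 1)) - Q • ((U - y • 1) * sS U Q t y n)
            + (U - y • 1) * gS U Q t (n + 1) := by
        simp only [sS, mul_add, mul_sub, mul_smul_comm]
      rw [e, h1, h0]
      simp only [gS, sub_mul, smul_mul_assoc, one_mul, smul_eq_mul]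
      module

theorem gS_mul_of_eig {U P : R} {Q t y : ℝ} (h : U * P = y • P) : ∀ k,
    gS U Q t k * P = (gS y Q t k : ℝ) • P
  | 0 => by simp [gS]
  | 1 => by
      simp only [gS, add_mul, smul_mul_assoc, one_mul, h, smul_eq_mul, mul_one, add_smul]
  | k + 2 => by
      have h1 := gS_mul_of_eig (Q := Q) (t := t) h (k + 1)
      have h0 := gS_mul_of_eig (Q := Q) (t := t) h k
      simp only [gS, sub_mul, mul_assoc, smul_mul_assoc, h1, h0, mul_smul_comm, h, smul_eq_mul]
      module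

theorem sS_mul_of_eig {U P : R} {Q t y : ℝ} (h : U * P = y • P) : ∀ n,
    sS U Q t y n * P = (sS y Q t y n : ℝ) • P
  | 0 => by simp [sS]
  | 1 => by simp [sS]
  | n + 2 => by
      have h1 := sS_mul_of_eig (Q := Q) (t := t) h (n + 1)
      have h0 := sS_mul_of_eig (Q := Q) (t := t) h n
      simp only [sS, add_mul, sub_mul, smul_mul_assoc, h1, h0, gS_mul_of_eig h, smul_eq_mul]
      module

/-- A linear functional on `S`: only `G 0` contributes. -/
theorem functional_sS {U : R} {Q t y : ℝ} (τ : R →ₗ[ℝ] ℝ) {n : ℕ}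
    (hτ : ∀ k, 1 ≤ k → k < n → τ (gS U Q t k) = 0) : ∀ l, l ≤ n →
    τ (sS U Q t y l) = aS y Q l * τ 1
  | 0, _ => by simp [sS, aS]
  | 1, _ => by simp [sS, aS]
  | l + 2, hl => by
      have h1 := functional_sS (y := y) τ hτ (l + 1) (by omega)
      have h0 := functional_sS (y := y) τ hτ l (by omega)
      simp only [sS, map_add, map_sub, map_smul, h1, h0, hτ (l + 1) (by omega) (by omega), aS,
        smul_eq_mul]
      ring

end Seq

section Core
variable {X : Type*} [Fintype X] [DecidableEq X]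

theorem trace_of_idem {P : Matrix X X ℝ} (h : P * P = P) : ∃ D : ℕ, P.trace = D := by
  have h1 : IsIdempotentElem (Matrix.toLin' P) := by
    show Matrix.toLin' P * Matrix.toLin' P = Matrix.toLin' P
    rw [Module.End.mul_eq_comp, ← Matrix.toLin'_mul, h]
  have h2 := LinearMap.IsIdempotentElem.isProj_range _ h1
  refine ⟨Module.finrank ℝ (LinearMap.range (Matrix.toLin' P)), ?_⟩
  have h3 := h2.trace
  rw [Matrix.trace_toLin'_eq] at h3
  exact h3

/-- The core: a root `y` of the recurrence gives an idempotent whose trace is a natural number. -/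
theorem core (U K₂ : Matrix X X ℝ) (Q t y κ₂ : ℝ) (n : ℕ)
    (hy : (gS y Q t n : ℝ) = 0)
    (hK : gS U Q t n * K₂ = 0)
    (hK₂ : ∀ P : Matrix X X ℝ, U * P = y • P → K₂ * P = κ₂ • P)
    (hτ : ∀ k, 1 ≤ k → k < n → (gS U Q t k * K₂).trace = 0)
    (hκ : κ₂ * (sS y Q t y n : ℝ) ≠ 0) :
    ∃ D : ℕ, (D : ℝ) * (κ₂ * (sS y Q t y n : ℝ)) = aS y Q n * K₂.trace := by
  set P₀ : Matrix X X ℝ := sS U Q t y n * K₂ with hP₀
  have hU : U * P₀ = y • P₀ := by
    have := sub_mul_sS U Q t y n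
    rw [hy, zero_smul, sub_zero] at this
    have h2 : (U - y • 1) * P₀ = 0 := by
      rw [hP₀, ← mul_assoc, this, hK]
    have h3 : (U - y • 1) * P₀ = U * P₀ - y • P₀ := by
      simp [sub_mul]
    rw [h3] at h2
    exact sub_eq_zero.1 h2
  have hsq : P₀ * P₀ = (κ₂ * (sS y Q t y n : ℝ)) • P₀ := by
    calc P₀ * P₀ = sS U Q t y n * (K₂ * P₀) := by rw [hP₀, mul_assoc]
      _ = κ₂ • (sS U Q t y n * P₀) := by rw [hK₂ _ hU, mul_smul_comm]
      _ = _ := by rw [sS_mul_of_eig hU, smul_smul]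
  set κ := κ₂ * (sS y Q t y n : ℝ) with hκdef
  have hidem : (κ⁻¹ • P₀) * (κ⁻¹ • P₀) = κ⁻¹ • P₀ := by
    rw [smul_mul_smul_comm, hsq, smul_smul]
    congr 1
    field_simp
  obtain ⟨D, hD⟩ := trace_of_idem hidem
  refine ⟨D, ?_⟩
  have htr : P₀.trace = aS y Q n * K₂.trace := by
    let τ : Matrix X X ℝ →ₗ[ℝ] ℝ :=
      (Matrix.traceLinearMap X ℝ ℝ).comp (LinearMap.mulRight ℝ K₂)
    have hτ' : ∀ x, τ x = (x * K₂).trace := fun x => rfl
    have := functional_sS (U := U) (Q := Q) (t := t) (y := y) τ (n := n)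
      (fun k h1 h2 => by rw [hτ']; exact hτ k h1 h2) n le_rfl
    rw [hτ', hτ', one_mul] at this
    exact this
  rw [Matrix.trace_smul, smul_eq_mul, htr] at hD
  rw [← hD]
  field_simp

end Core

end Cfsg.Agent.Lib.FH
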