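import Cfsg.Agent.Lib.FH.Thm
import Cfsg.Agent.Lib.BN.Weyl

set_option linter.unusedSimpArgs false
set_option linter.unusedSectionVars false

/-! Feit--Higman: the chamber matrices of a (B,N)-pair. -/

namespace Cfsg.Agent.Lib.FH

open Cfsg Cfsg.Agent.Lib.BN Cfsg.Agent.Lib.BN.Cox

variable {G : Type*} [Group G] {P : BNPair G}

/-- The relation `x⁻¹ y ∈ B n B` on chambers. -/
def Rl (P : BNPair G) (n : G) (x y : G ⧸ P.B) : Prop := DC P n (x.out⁻¹ * y.out)

theorem Rl_mk {n g h : G} :
    Rl P n (QuotientGroup.mk g) (QuotientGroup.mk h) ↔ DC P n (g⁻¹ * h) := by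
  obtain ⟨b, hb⟩ := QuotientGroup.mk_out_eq_mul P.B g
  obtain ⟨b', hb'⟩ := QuotientGroup.mk_out_eq_mul P.B h
  unfold Rl
  rw [hb, hb']
  have e : ((g * (b : G))⁻¹ * (h * (b' : G))) = (b : G)⁻¹ * (g⁻¹ * h) * b' := by group
  rw [e]
  constructor
  · intro H
    have h1 := H.mul_right (P.B.inv_mem b'.2)
    have h2 := h1.mul_left b.2
    have e2 : (b : G) * ((b : G)⁻¹ * (g⁻¹ * h) * b' * (b' : G)⁻¹) = g⁻¹ * h := by group
    rwa [e2] at h2
  · intro H
    exact (H.mul_left (P.B.inv_mem b.2)).mul_right b'.2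

theorem mk_eq_iff_mem {g h : G} :
    (QuotientGroup.mk g : G ⧸ P.B) = QuotientGroup.mk h ↔ g⁻¹ * h ∈ P.B :=
  QuotientGroup.eq

theorem dc_mem_of_mem {n x : G} (hn : n ∈ P.B) (h : DC P n x) : x ∈ P.B := by
  obtain ⟨b₁, h₁, b₂, h₂, rfl⟩ := h
  exact P.B.mul_mem (P.B.mul_mem h₁ hn) h₂

/-- Composition of relations when lengths add. -/
theorem comp_dc {s n x y : G} (hs : s ∈ P.S) (hn : n ∈ P.N) (hlen : len P n ≤ len P (s * n))
    (hx : DC P s x) (hy : DC P n y) : DC P (s * n) (x * y) := by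
  obtain ⟨b₃, h₃, b₄, h₄, rfl⟩ := hx
  obtain ⟨b₅, h₅, b₆, h₆, rfl⟩ := hy
  have h := t3_up (b := b₄ * b₅) hs hn (P.B.mul_mem h₄ h₅) hlen
  have h2 := (h.mul_left h₃).mul_right h₆
  have e : b₃ * s * b₄ * (b₅ * n * b₆) = b₃ * (s * (b₄ * b₅) * n) * b₆ := by group
  rw [e]
  exact h2

/-- Uniqueness of the intermediate chamber. -/
theorem uniq_mid {s n g h v b₁ b₂ : G} (hs : s ∈ P.S) (hn : n ∈ P.N)
    (hlen : len P n < len P (s * n)) (hb₁ : b₁ ∈ P.B) (hb₂ : b₂ ∈ P.B)
    (he : g⁻¹ * h = b₁ * (s * n) * b₂) (hx : DC P s (g⁻¹ * v)) (hy : DC P n (v⁻¹ * h)) :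
    (g * b₁ * s)⁻¹ * v ∈ P.B := by
  obtain ⟨b₃, h₃, b₄, h₄, hv⟩ := hx
  have hve : v = g * (b₃ * s * b₄) := by rw [← hv]; group
  subst hve
  -- `d = b₃⁻¹ * b₁`
  set d := b₃⁻¹ * b₁ with hd
  have hdB : d ∈ P.B := P.B.mul_mem (P.B.inv_mem h₃) hb₁
  have e1 : (g * (b₃ * s * b₄))⁻¹ * h = b₄⁻¹ * (s⁻¹ * d * s * n) * b₂ := by
    have : h = g * (b₁ * (s * n) * b₂) := by rw [← he]; group
    rw [this, hd]
    group
  rw [e1] at hy
  have hy2 : DC P n (s⁻¹ * d * s * n) := by
    have h5 := (hy.mul_left h₄).mul_right (P.B.inv_mem hb₂)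
    have e2 : b₄ * (b₄⁻¹ * (s⁻¹ * d * s * n) * b₂) * b₂⁻¹ = s⁻¹ * d * s * n := by group
    rwa [e2] at h5
  have hmem : s⁻¹ * d * s ∈ P.B := by
    by_contra hnot
    have h6 := t3_inv (b := d) hs (S_mem_N hs) hdB
    rcases h6 with h6 | h6
    · exact hnot (dc_mem_of_mem (P.sq_mem s hs) h6)
    · obtain ⟨b₇, h₇, b₈, h₈, e7⟩ := h6
      -- `s⁻¹ d s = b₇ s b₈`
      have h8 : DC P n (s * b₈ * n) := by
        have : s⁻¹ * d * s * n = b₇ * (s * b₈ * n) := by
          rw [e7]; group
        rw [this] at hy2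
        have h9 := hy2.mul_left (P.B.inv_mem h₇)
        have e9 : b₇⁻¹ * (b₇ * (s * b₈ * n)) = s * b₈ * n := by group
        rwa [e9] at h9
      have h10 := t3_up (b := b₈) hs hn h₈ hlen.le
      have h11 : DC P n (s * n) := h8.trans h10.symm
      have h12 := len_congr_dc hn (P.N.mul_mem (S_mem_N hs) hn) h11
      omega
  have e3 : (g * b₁ * s)⁻¹ * (g * (b₃ * s * b₄)) = (s⁻¹ * d * s)⁻¹ * b₄ := by
    rw [hd]; group
  rw [e3]
  exact P.B.mul_mem (P.B.inv_mem hmem) h₄

section Matrices

variable [Fintype (G ⧸ P.B)]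

variable (P) in
/-- The matrix of the relation. -/
noncomputable def tM (n : G) : Matrix (G ⧸ P.B) (G ⧸ P.B) ℝ :=
  open Classical in fun x y => if Rl P n x y then 1 else 0

theorem tM_apply_mk {n g h : G} :
    tM P n (QuotientGroup.mk g) (QuotientGroup.mk h) = (open Classical in if DC P n (g⁻¹ * h) then 1 else 0) := by
  classical
  simp only [tM, Rl_mk]

theorem tM_congr {n n' : G} (h : DC P n n') : tM P n = tM P n' := by
  classical
  ext x y
  obtain ⟨g, rfl⟩ := QuotientGroup.mk_surjective x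
  obtain ⟨k, rfl⟩ := QuotientGroup.mk_surjective y
  rw [tM_apply_mk, tM_apply_mk]
  have : DC P n (g⁻¹ * k) ↔ DC P n' (g⁻¹ * k) := ⟨fun H => h.symm.trans H, fun H => h.trans H⟩
  simp only [this]

theorem tM_one [DecidableEq (G ⧸ P.B)] : tM P (1 : G) = 1 := by
  classical
  ext x y
  obtain ⟨g, rfl⟩ := QuotientGroup.mk_surjective x
  obtain ⟨k, rfl⟩ := QuotientGroup.mk_surjective y
  rw [tM_apply_mk, Matrix.one_apply]
  have : DC P 1 (g⁻¹ * k) ↔ (QuotientGroup.mk g : G ⧸ P.B) = QuotientGroup.mk k := by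
    rw [dc_one_iff, mk_eq_iff_mem]
  simp only [this]

theorem trace_tM {n : G} (hn : n ∉ P.B) : (tM P n).trace = 0 := by
  classical
  apply Finset.sum_eq_zero
  intro x _
  obtain ⟨g, rfl⟩ := QuotientGroup.mk_surjective x
  simp only [Matrix.diag_apply]
  rw [tM_apply_mk]
  have : ¬ DC P n (g⁻¹ * g) := by
    rw [inv_mul_cancel]
    intro h
    exact hn (dc_one_iff.1 h.symm)
  simp only [this, if_false]

/-- The Hecke product when lengths add. -/
theorem tM_mul {s n : G} (hs : s ∈ P.S) (hn : n ∈ P.N) (hlen : len P n < len P (s * n)) :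
    tM P s * tM P n = tM P (s * n) := by
  classical
  ext x y
  obtain ⟨g, rfl⟩ := QuotientGroup.mk_surjective x
  obtain ⟨h, rfl⟩ := QuotientGroup.mk_surjective y
  rw [Matrix.mul_apply, tM_apply_mk]
  by_cases hxy : DC P (s * n) (g⁻¹ * h)
  · rw [if_pos hxy]
    obtain ⟨b₁, hb₁, b₂, hb₂, he⟩ := hxy
    rw [Finset.sum_eq_single (QuotientGroup.mk (g * b₁ * s))]
    · rw [tM_apply_mk, tM_apply_mk]
      have c1 : DC P s (g⁻¹ * (g * b₁ * s)) := by
        have : g⁻¹ * (g * b₁ * s) = b₁ * s := by group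
        rw [this]
        exact dc_mul_left_self hb₁
      have c2 : DC P n ((g * b₁ * s)⁻¹ * h) := by
        have e : (g * b₁ * s)⁻¹ * h = n * b₂ := by
          have : h = g * (b₁ * (s * n) * b₂) := by rw [← he]; group
          rw [this]; group
        rw [e]
        exact dc_mul_right_self hb₂
      simp only [c1, c2, if_true, mul_one]
    · intro u _ hne
      obtain ⟨v, rfl⟩ := QuotientGroup.mk_surjective u
      rw [tM_apply_mk, tM_apply_mk]
      by_cases c1 : DC P s (g⁻¹ * v)
      · by_cases c2 : DC P n (v⁻¹ * h)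
        · exfalso
          apply hne
          rw [eq_comm, mk_eq_iff_mem]
          exact uniq_mid hs hn hlen hb₁ hb₂ he c1 c2
        · simp [c2]
      · simp [c1]
    · intro hnot
      exact absurd (Finset.mem_univ _) hnot
  · rw [if_neg hxy]
    apply Finset.sum_eq_zero
    intro u _
    obtain ⟨v, rfl⟩ := QuotientGroup.mk_surjective u
    rw [tM_apply_mk, tM_apply_mk]
    by_cases c1 : DC P s (g⁻¹ * v)
    · by_cases c2 : DC P n (v⁻¹ * h)
      · exfalso
        apply hxy
        have := comp_dc hs hn hlen.le c1 c2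
        have e : g⁻¹ * v * (v⁻¹ * h) = g⁻¹ * h := by group
        rwa [e] at this
      · simp [c2]
    · simp [c1]

/-! ### The quadratic relation -/

/-- The panel relation. -/
def Pn (P : BNPair G) (s : G) (x y : G ⧸ P.B) : Prop := Rl P s x y ∨ x = y

theorem Pn_refl (s : G) (x : G ⧸ P.B) : Pn P s x x := Or.inr rfl

theorem Pn_symm {s : G} (hs : s ∈ P.S) {x y : G ⧸ P.B} (h : Pn P s x y) : Pn P s y x := by
  obtain ⟨g, rfl⟩ := QuotientGroup.mk_surjective x
  obtain ⟨k, rfl⟩ := QuotientGroup.mk_surjective y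
  rcases h with h | h
  · left
    rw [Rl_mk] at h ⊢
    have h1 := h.inv
    have e : (g⁻¹ * k)⁻¹ = k⁻¹ * g := by group
    rw [e] at h1
    refine DC.trans ?_ h1
    refine DC.symm ?_
    show DC P s⁻¹ s
    rw [inv_eq_mul']
    exact (dc_mul_left_self (P.B.inv_mem (P.sq_mem s hs))).symm
  · exact Or.inr h.symm

theorem Pn_trans {s : G} (hs : s ∈ P.S) {x y z : G ⧸ P.B} (h : Pn P s x y) (h' : Pn P s y z) :
    Pn P s x z := by
  obtain ⟨g, rfl⟩ := QuotientGroup.mk_surjective x
  obtain ⟨k, rfl⟩ := QuotientGroup.mk_surjective y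
  obtain ⟨l, rfl⟩ := QuotientGroup.mk_surjective z
  rcases h with h | h
  · rcases h' with h' | h'
    · rw [Rl_mk] at h h'
      obtain ⟨b₁, h₁, b₂, h₂, e⟩ := h
      obtain ⟨b₃, h₃, b₄, h₄, e'⟩ := h'
      have h5 := t3 (b := b₂ * b₃) hs (S_mem_N hs) (P.B.mul_mem h₂ h₃)
      have e5 : g⁻¹ * l = b₁ * (s * (b₂ * b₃) * s) * b₄ := by
        have : g⁻¹ * l = (g⁻¹ * k) * (k⁻¹ * l) := by group
        rw [this, e, e']
        group
      rcases h5 with h5 | h5
      · right
        rw [mk_eq_iff_mem, e5]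
        exact P.B.mul_mem (P.B.mul_mem h₁ (dc_mem_of_mem (P.sq_mem s hs) h5)) h₄
      · left
        rw [Rl_mk, e5]
        exact (h5.mul_left h₁).mul_right h₄
    · rw [← h']
      exact Or.inl h
  · rw [h]
    exact h'

variable (P) in
/-- The thickness parameter. -/
noncomputable def qS (s : G) : ℕ :=
  open Classical in (Finset.univ.filter (fun u => Rl P s (QuotientGroup.mk (1 : G)) u)).card

theorem rowSum_one (s : G) :
    ∑ u, tM P s (QuotientGroup.mk (1 : G)) u = (qS P s : ℝ) := by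
  classical
  simp only [tM, qS]
  rw [Finset.sum_boole]

theorem rowSum_eq (s : G) (x : G ⧸ P.B) : ∑ u, tM P s x u = (qS P s : ℝ) := by
  classical
  obtain ⟨g, rfl⟩ := QuotientGroup.mk_surjective x
  rw [← rowSum_one, ← Equiv.sum_comp (MulAction.toPerm (g : G) : Equiv.Perm (G ⧸ P.B))]
  apply Finset.sum_congr rfl
  intro u _
  obtain ⟨h, rfl⟩ := QuotientGroup.mk_surjective u
  have e : (MulAction.toPerm g : Equiv.Perm (G ⧸ P.B)) (QuotientGroup.mk h)
      = QuotientGroup.mk (g * h) := rfl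
  rw [e, tM_apply_mk, tM_apply_mk]
  have e1 : g⁻¹ * (g * h) = h := by group
  have e2 : (1 : G)⁻¹ * h = h := by group
  rw [e1, e2]

theorem mulVec_tM (s : G) : (tM P s).mulVec (fun _ => 1) = fun _ => (qS P s : ℝ) := by
  ext x
  simp only [Matrix.mulVec, dotProduct, mul_one]
  exact rowSum_eq s x

theorem two_le_qS {s : G} (hs : s ∈ P.S) : 2 ≤ qS P s := by
  classical
  obtain ⟨b, hb, hnot⟩ := exists_conj_not_mem (P := P) hs
  have : 1 < qS P s := by
    unfold qS
    rw [Finset.one_lt_card]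
    refine ⟨QuotientGroup.mk s, ?_, QuotientGroup.mk (b * s), ?_, ?_⟩
    · simp only [Finset.mem_filter, Finset.mem_univ, true_and, Rl_mk]
      have e : (1 : G)⁻¹ * s = s := by group
      rw [e]
      exact DC.refl s
    · simp only [Finset.mem_filter, Finset.mem_univ, true_and, Rl_mk]
      have e : (1 : G)⁻¹ * (b * s) = b * s := by group
      rw [e]
      exact dc_mul_left_self hb
    · intro he
      rw [mk_eq_iff_mem] at he
      apply hnot
      have e : s * b * s = (s * s) * (s⁻¹ * (b * s)) := by group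
      rw [e]
      exact P.B.mul_mem (P.sq_mem s hs) he
  omega

theorem tM_sq [DecidableEq (G ⧸ P.B)] {s : G} (hs : s ∈ P.S) :
    tM P s * tM P s = ((qS P s : ℕ) : ℝ) • 1 + (((qS P s : ℕ) : ℝ) - 1) • tM P s := by
  classical
  set E : Matrix (G ⧸ P.B) (G ⧸ P.B) ℝ := tM P s + 1 with hE
  have hEa : ∀ x y, E x y = if Pn P s x y then 1 else 0 := by
    intro x y
    obtain ⟨g, rfl⟩ := QuotientGroup.mk_surjective x
    obtain ⟨k, rfl⟩ := QuotientGroup.mk_surjective y
    rw [hE, Matrix.add_apply, Matrix.one_apply, tM_apply_mk]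
    by_cases hxy : (QuotientGroup.mk g : G ⧸ P.B) = QuotientGroup.mk k
    · have h1 : ¬ DC P s (g⁻¹ * k) := by
        intro h
        rw [mk_eq_iff_mem] at hxy
        have h2 := DC.trans h ((dc_one_iff.2 hxy).symm)
        exact S_not_mem_B hs (dc_one_iff.1 h2.symm)
      have h3 : Pn P s (QuotientGroup.mk g) (QuotientGroup.mk k) := Or.inr hxy
      rw [if_neg h1, if_pos hxy, if_pos h3, zero_add]
    · have h3 : Pn P s (QuotientGroup.mk g) (QuotientGroup.mk k) ↔ DC P s (g⁻¹ * k) := by
        unfold Pn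
        rw [Rl_mk]
        simp [hxy]
      rw [if_neg hxy, add_zero]
      simp only [h3]
  have hsum : ∀ x, ∑ u, E x u = (qS P s : ℝ) + 1 := by
    intro x
    simp only [hE, Matrix.add_apply, Finset.sum_add_distrib, rowSum_eq, Matrix.one_apply,
      Finset.sum_ite_eq, Finset.mem_univ, if_true]
  have hEE : E * E = (((qS P s : ℕ) : ℝ) + 1) • E := by
    ext x y
    rw [Matrix.mul_apply, Matrix.smul_apply, smul_eq_mul]
    by_cases hxy : Pn P s x y
    · have : ∀ u, E x u * E u y = E x u := by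
        intro u
        rw [hEa, hEa]
        by_cases h1 : Pn P s x u
        · have h2 : Pn P s u y := Pn_trans hs (Pn_symm hs h1) hxy
          simp [h1, h2]
        · simp [h1]
      simp only [this, hsum]
      rw [hEa x y, if_pos hxy, mul_one]
    · have : ∀ u, E x u * E u y = 0 := by
        intro u
        rw [hEa, hEa]
        by_cases h1 : Pn P s x u
        · have h2 : ¬ Pn P s u y := fun h => hxy (Pn_trans hs h1 h)
          simp [h2]
        · simp [h1]
      simp only [this, Finset.sum_const_zero]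
      rw [hEa x y, if_neg hxy, mul_zero]
  have hA : tM P s = E - 1 := by rw [hE]; simp
  have e : (E - 1) * (E - 1) = E * E - E - E + 1 := by noncomm_ring
  rw [hA, e, hEE]
  module

end Matrices

/-- Order of a group generated by two involutions. -/
theorem dihedral_card {W ι : Type*} [Group W] [Finite W] {g : ι → W} {a b : ι}
    (ha : g a * g a = 1) (hb : g b * g b = 1) (na : g a ≠ 1) (nb : g b ≠ 1)
    (hgen : ∀ w : W, ∃ l, val g l = w) (hι : ∀ i, i = a ∨ i = b) :
    Nat.card W = 2 * orderOf (g a * g b) := by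
  set r := g a * g b with hr
  set H := Subgroup.zpowers r with hH
  have hrH : r ∈ H := Subgroup.mem_zpowers r
  have hainv : (g a)⁻¹ = g a := inv_eq_of_mul_eq_one_left ha
  have hbinv : (g b)⁻¹ = g b := inv_eq_of_mul_eq_one_left hb
  have hrinv : r⁻¹ = g b * g a := by rw [hr, mul_inv_rev, hainv, hbinv]
  have hcover : ∀ l : List ι, val g l ∈ H ∨ (g a)⁻¹ * val g l ∈ H := by
    intro l
    induction l with
    | nil =>
      left
      exact H.one_mem
    | cons i l ih =>
      have e : val g (i :: l) = g i * val g l := by simp [val]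
      rw [e]
      rcases hι i with rfl | rfl
      · rcases ih with h | h
        · right
          rw [inv_mul_cancel_left]
          exact h
        · left
          rw [hainv] at h
          exact h
      · rcases ih with h | h
        · right
          rw [hainv, ← mul_assoc]
          exact H.mul_mem hrH h
        · left
          rw [hainv] at h
          have e2 : g i * val g l = r⁻¹ * (g a * val g l) := by
            rw [hrinv, mul_assoc, ← mul_assoc (g a), ha, one_mul]
          rw [e2]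
          exact H.mul_mem (H.inv_mem hrH) h
  have hnot : g a ∉ H := by
    intro hmem
    have hcomm : g a * r = r * g a := by
      obtain ⟨k, hk⟩ := Subgroup.mem_zpowers_iff.1 hmem
      rw [← hk]
      exact (Commute.zpow_left (Commute.refl r) k)
    have hrr : r * r = 1 := by
      calc r * r = (g a * g b * g a) * g b := by rw [hr]; group
        _ = (r * g a) * g b := by rw [hr]
        _ = (g a * r) * g b := by rw [hcomm]
        _ = (g a * g a) * g b * g b := by rw [hr]; group
        _ = 1 := by rw [ha, one_mul, hb]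
    obtain ⟨k, hk⟩ := Subgroup.mem_zpowers_iff.1 hmem
    rcases Int.even_or_odd' k with ⟨t, rfl | rfl⟩
    · apply na
      rw [← hk, zpow_mul, zpow_two, hrr, one_zpow]
    · apply nb
      have : g a = r := by
        rw [← hk, zpow_add, zpow_mul, zpow_two, hrr, one_zpow, one_mul, zpow_one]
      have h2 : g a = g a * g b := this
      exact (mul_eq_left.1 h2.symm)
  have hidx : H.index = 2 := by
    show Nat.card (W ⧸ H) = 2
    rw [Nat.card_eq_two_iff]
    refine ⟨QuotientGroup.mk 1, QuotientGroup.mk (g a), ?_, ?_⟩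
    · intro he
      rw [QuotientGroup.eq] at he
      apply hnot
      simpa using he
    · ext z
      simp only [Set.mem_insert_iff, Set.mem_singleton_iff, Set.mem_univ, iff_true]
      obtain ⟨w, rfl⟩ := QuotientGroup.mk_surjective z
      obtain ⟨l, rfl⟩ := hgen w
      rcases hcover l with h | h
      · left
        rw [QuotientGroup.eq]
        simpa using h
      · right
        rw [QuotientGroup.eq]
        exact (H.inv_mem h |> fun h' => by simpa using h')
  have hcard := Subgroup.index_mul_card H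
  rw [hidx, Nat.card_zpowers] at hcard
  exact hcard.symm

end Cfsg.Agent.Lib.FH
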