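import Cfsg.Agent.Lib.FH.Trig

set_option linter.unusedSimpArgs false
set_option linter.unusedSectionVars false

/-! Feit--Higman: the multiplicity formulas. -/

namespace Cfsg.Agent.Lib.FH

open Real

variable {X : Type*} [Fintype X] [DecidableEq X]

/-- The multiplicity formula, even case. -/
theorem even_key {A B : Matrix X X ℝ} {q₁ q₂ : ℝ} (h1 : 2 ≤ q₁) (h2 : 2 ≤ q₂)
    (hA : A * A = q₁ • 1 + (q₁ - 1) • A) (hB : B * B = q₂ • 1 + (q₂ - 1) • B)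
    {n : ℕ} (hn : 2 ≤ n) (hbr : (A * B) ^ n = (B * A) ^ n)
    (ht1 : ∀ k, 1 ≤ k → k ≤ n → ((A * B) ^ k).trace = 0)
    (ht2 : ∀ k, 1 ≤ k → k ≤ n → ((B * A) ^ k).trace = 0)
    (ht3 : ∀ k, k < n → ((A * B) ^ k * A).trace = 0)
    (ht4 : ∀ k, k < n → ((B * A) ^ k * B).trace = 0)
    {j : ℕ} (hj1 : 1 ≤ j) (hjn : j < n) :
    ∃ D : ℕ, (D : ℝ) * n * ((1 + q₁ * q₂ - 2 * (√(q₁ * q₂) * cos ((j : ℝ) * π / n)))
        * (2 * (√(q₁ * q₂) * cos ((j : ℝ) * π / n)) + (q₁ + q₂)))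
      = 4 * (Fintype.card X : ℝ) * (q₁ * q₂ - (√(q₁ * q₂) * cos ((j : ℝ) * π / n)) ^ 2) := by
  obtain ⟨n₀, rfl⟩ : ∃ n₀, n = n₀ + 1 := ⟨n - 1, by omega⟩
  have hQ0 : 0 < q₁ * q₂ := by positivity
  set r := √(q₁ * q₂) with hr
  have hr0 : 0 < r := Real.sqrt_pos.2 hQ0
  have hQ : q₁ * q₂ = r * r := (Real.mul_self_sqrt hQ0.le).symm
  set φ := (j : ℝ) * π / ((n₀ + 1 : ℕ) : ℝ) with hφ
  have hn0 : (0 : ℝ) < ((n₀ + 1 : ℕ) : ℝ) := by positivity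
  have hj0 : (0 : ℝ) < j := by exact_mod_cast hj1
  have hφ0 : 0 < φ := by positivity
  have hφπ : φ < π := by
    rw [hφ, div_lt_iff₀ hn0]
    have : (j : ℝ) < ((n₀ + 1 : ℕ) : ℝ) := by exact_mod_cast hjn
    nlinarith [Real.pi_pos]
  have hs : 0 < sin φ := Real.sin_pos_of_pos_of_lt_pi hφ0 hφπ
  have hnφ : ((n₀ + 1 : ℕ) : ℝ) * φ = (j : ℝ) * π := by
    rw [hφ]; field_simp
  have hsn : sin (((n₀ + 1 : ℕ) : ℝ) * φ) = 0 := by
    rw [hnφ]; exact Real.sin_nat_mul_pi j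
  set ε := cos (((n₀ + 1 : ℕ) : ℝ) * φ) with hε
  have hε2 : ε ^ 2 = 1 := by
    have := sin_sq_add_cos_sq (((n₀ + 1 : ℕ) : ℝ) * φ)
    rw [hsn] at this
    linarith [this]
  have hε0 : ε ≠ 0 := by
    intro h
    rw [h] at hε2
    norm_num at hε2
  have hsn₀ : sin ((n₀ : ℝ) * φ) = -ε * sin φ := by
    have e : (n₀ : ℝ) * φ = ((n₀ + 1 : ℕ) : ℝ) * φ - φ := by push_cast; ring
    rw [e, sin_sub, hsn]
    ring
  -- the closed forms
  have ha := aS_closed r φ n₀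
  rw [hsn₀] at ha
  have hS := sS_even_closed r φ n₀
  rw [hsn, ← hε] at hS
  have hg : gS (2 * r * cos φ) (r * r) 0 n₀ = 0 := by
    rw [gS_zero_eq]
    have := aS_closed r φ (n₀ + 1)
    rw [hsn, mul_zero] at this
    exact (mul_eq_zero.1 this).resolve_right (by positivity)
  have hrn : r ^ n₀ ≠ 0 := by positivity
  have hnn : (((n₀ + 1 : ℕ) : ℝ)) ≠ 0 := hn0.ne'
  have hSne : sS (2 * r * cos φ) (r * r) 0 (2 * r * cos φ) n₀ ≠ 0 := by
    intro h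
    rw [h, zero_mul] at hS
    have : r ^ n₀ * (((n₀ + 1 : ℕ) : ℝ) * ε * sin φ) = 0 := by linear_combination hS
    have hne : r ^ n₀ * (((n₀ + 1 : ℕ) : ℝ) * ε * sin φ) ≠ 0 :=
      mul_ne_zero hrn (mul_ne_zero (mul_ne_zero hnn hε0) hs.ne')
    exact hne this
  have hcos1 : cos φ < 1 := by
    have := Real.cos_lt_cos_of_nonneg_of_le_pi le_rfl hφπ.le hφ0
    simpa using this
  have hcos2 : -1 < cos φ := by
    have := Real.cos_lt_cos_of_nonneg_of_le_pi hφ0.le le_rfl hφπ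
    simpa using this
  have h2r : 2 * r ≤ q₁ + q₂ := by
    by_contra hlt
    push Not at hlt
    have : (q₁ + q₂) * (q₁ + q₂) < (2 * r) * (2 * r) :=
      mul_self_lt_mul_self (by positivity) hlt
    nlinarith [sq_nonneg (q₁ - q₂)]
  have hκ1 : 2 * r * cos φ - (1 + r * r) < 0 := by
    nlinarith [sq_nonneg (r - 1)]
  have hκ2 : 0 < 2 * r * cos φ + (q₁ + q₂) := by
    nlinarith
  have hmat := mat_even (X := X) hA hB (n := n₀ + 1) hn hbr ht1 ht2 ht3 ht4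
    (y := 2 * r * cos φ)
    (by rw [hQ]; exact hg)
    (by
      rw [hQ]
      exact mul_ne_zero (mul_ne_zero hκ1.ne hκ2.ne') hSne)
  obtain ⟨D, hD⟩ := hmat
  refine ⟨D, ?_⟩
  rw [hQ] at hD
  simp only [Nat.add_sub_cancel] at hD
  generalize sS (2 * r * cos φ) (r * r) 0 (2 * r * cos φ) n₀ = S at *
  generalize aS (2 * r * cos φ) (r * r) n₀ = a at *
  -- cancel
  set N := (Fintype.card X : ℝ)
  have hcancel : r ^ n₀ * (-ε * sin φ) ≠ 0 :=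
    mul_ne_zero hrn (mul_ne_zero (neg_ne_zero.2 hε0) hs.ne')
  have hs2 : cos φ ^ 2 = 1 - sin φ ^ 2 := by linarith [sin_sq_add_cos_sq φ]
  have hfin : (r ^ n₀ * (-ε * sin φ)) * ((D : ℝ) * ((n₀ + 1 : ℕ) : ℝ)
      * ((2 * r * cos φ - (1 + r * r)) * (2 * r * cos φ + (q₁ + q₂))))
      = (r ^ n₀ * (-ε * sin φ)) * (-(4 * N * (r * r) * sin φ ^ 2)) := by
    linear_combination (2 * r * sin φ ^ 3) * hD
      - ((D : ℝ) * ((2 * r * cos φ - (1 + r * r)) * (2 * r * cos φ + (q₁ + q₂)))) * hS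
      + (2 * sin φ ^ 2 * (-(2 * (r * r)) * N)) * ha
  have hfin2 := mul_left_cancel₀ hcancel hfin
  have e1 : (r * cos φ) ^ 2 = r * r * (1 - sin φ ^ 2) := by rw [mul_pow, hs2]; ring
  rw [hQ, e1]
  linear_combination -hfin2

/-- The multiplicity formula, odd case. -/
theorem odd_key {A B : Matrix X X ℝ} {q : ℝ} (h1 : 2 ≤ q)
    (hA : A * A = q • 1 + (q - 1) • A) (hB : B * B = q • 1 + (q - 1) • B)
    {n : ℕ} (hn : 1 ≤ n) (hbr : (A * B) ^ n * A = (B * A) ^ n * B)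
    (ht1 : ∀ k, 1 ≤ k → k ≤ n → ((A * B) ^ k).trace = 0)
    (ht2 : ∀ k, 1 ≤ k → k ≤ n → ((B * A) ^ k).trace = 0)
    (ht3 : ∀ k, k < n → ((A * B) ^ k * A).trace = 0)
    (ht4 : ∀ k, k < n → ((B * A) ^ k * B).trace = 0) :
    ∃ D : ℕ, (D : ℝ) * ((2 * n + 1 : ℕ) : ℝ) * (1 + q * q - 2 * (q * cos (2 * (π / ((2 * n + 1 : ℕ) : ℝ)))))
      = 4 * (Fintype.card X : ℝ) * (q - q * cos (2 * (π / ((2 * n + 1 : ℕ) : ℝ)))) := by
  have hq0 : 0 < q := by linarith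
  set m : ℝ := ((2 * n + 1 : ℕ) : ℝ) with hm
  have hm0 : 0 < m := by rw [hm]; positivity
  have hm3 : 3 ≤ m := by
    rw [hm]; have : 3 ≤ 2 * n + 1 := by omega
    exact_mod_cast this
  set ψ := π / m with hψ
  have hψ0 : 0 < ψ := by positivity
  have hψπ : ψ ≤ π / 3 := by
    rw [hψ]
    exact div_le_div_of_nonneg_left Real.pi_pos.le (by norm_num) hm3
  have hpi := Real.pi_pos
  have hs : 0 < sin ψ := Real.sin_pos_of_pos_of_lt_pi hψ0 (by linarith)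
  have hT : 0 < sin (2 * ψ) := Real.sin_pos_of_pos_of_lt_pi (by positivity) (by linarith)
  have hmψ : m * ψ = π := by rw [hψ]; field_simp
  have hsn : sin (((2 * n + 1 : ℕ) : ℝ) * ψ) = 0 := by
    rw [← hm, hmψ]; exact Real.sin_pi
  have hε : cos (((2 * n + 1 : ℕ) : ℝ) * ψ) = -1 := by
    rw [← hm, hmψ]; exact Real.cos_pi
  have hsn₀ : sin ((n : ℝ) * (2 * ψ)) = sin ψ := by
    have e : (n : ℝ) * (2 * ψ) = ((2 * n + 1 : ℕ) : ℝ) * ψ - ψ := by push_cast; ring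
    rw [e, sin_sub, hsn, hε]
    ring
  have hg : gS (2 * q * cos (2 * ψ)) (q * q) q n = 0 := by
    have := gS_odd_closed q ψ n
    rw [hsn, mul_zero] at this
    exact (mul_eq_zero.1 this).resolve_right hs.ne'
  have ha := aS_closed q (2 * ψ) n
  rw [hsn₀] at ha
  have hS := sS_odd_closed q ψ n
  rw [hsn₀, hε] at hS
  have hqn : q ^ n ≠ 0 := by positivity
  have hE : sin ψ - 2 * (n : ℝ) * sin ψ * -1 = m * sin ψ := by rw [hm]; push_cast; ring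
  rw [hE] at hS
  have hSne : sS (2 * q * cos (2 * ψ)) (q * q) q (2 * q * cos (2 * ψ)) n ≠ 0 := by
    intro h
    rw [h, zero_mul] at hS
    have hne : q ^ n * (m * sin ψ) ≠ 0 := by positivity
    exact hne hS.symm
  have hκ : 0 < 1 + q * q - 2 * q * cos (2 * ψ) := by
    have := Real.cos_le_one (2 * ψ)
    nlinarith [sq_nonneg (q - 1)]
  have hmat := mat_odd (X := X) hA hB hn hbr ht1 ht2 ht3 ht4 (y := 2 * q * cos (2 * ψ)) hg
    (mul_ne_zero hκ.ne' hSne)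
  obtain ⟨D, hD⟩ := hmat
  refine ⟨D, ?_⟩
  generalize sS (2 * q * cos (2 * ψ)) (q * q) q (2 * q * cos (2 * ψ)) n = S at *
  generalize aS (2 * q * cos (2 * ψ)) (q * q) n = a at *
  set N := (Fintype.card X : ℝ)
  have hcancel : q ^ n * sin ψ ≠ 0 := by positivity
  have hcos : cos (2 * ψ) = 1 - 2 * sin ψ ^ 2 := by
    rw [cos_two_mul]; linarith [sin_sq_add_cos_sq ψ]
  have hfin : (q ^ n * sin ψ) * ((D : ℝ) * m * (1 + q * q - 2 * q * cos (2 * ψ)))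
      = (q ^ n * sin ψ) * (8 * q * N * sin ψ ^ 2) := by
    linear_combination (4 * q * sin (2 * ψ) * sin ψ ^ 2) * hD
      - ((D : ℝ) * (1 + q * q - 2 * q * cos (2 * ψ))) * hS
      + (4 * sin ψ ^ 2 * (2 * q * N)) * ha
  have hfin2 := mul_left_cancel₀ hcancel hfin
  rw [show 1 + q * q - 2 * (q * cos (2 * ψ)) = 1 + q * q - 2 * q * cos (2 * ψ) by ring, hfin2,
    hcos]
  ring

end Cfsg.Agent.Lib.FH
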