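import Cfsg.Agent.Lib.FH.Group

set_option linter.unusedSimpArgs false
set_option linter.unusedSectionVars false

/-! Feit--Higman for (B,N)-pairs. -/

namespace Cfsg.Agent.Lib.FH

open Cfsg Cfsg.Agent.Lib.BN Cfsg.Agent.Lib.BN.Cox

variable {G : Type*} [Group G]

theorem word_step {P : BNPair G} [hN : ((P.B ⊓ P.N).subgroupOf P.N).Normal] [Fintype (G ⧸ P.B)]
    {a b : P.S} {k : ℕ} (h1 : Reduced (weylGen P) (alt a b (k + 1)))
    (h2 : Reduced (weylGen P) (alt b a k)) :
    tM P (a : G) * tM P (wordG P (alt b a k)) = tM P (wordG P (alt a b (k + 1))) := by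
  have e : wordG P (alt a b (k + 1)) = (a : G) * wordG P (alt b a k) := by
    simp [alt]
  rw [e]
  apply tM_mul a.2 (wordG_mem_N _)
  have l1 := (reduced_iff _).1 h1
  have l2 := (reduced_iff _).1 h2
  rw [e] at l1
  simp only [alt_length] at l1 l2
  omega

theorem feit_higman [Finite G] (P : BNPair G) (h2 : P.rank = 2) :
    ((P.B ⊓ P.N).subgroupOf P.N).index ∈ ({4, 6, 8, 12, 16} : Set ℕ) := by
  classical
  haveI hN : ((P.B ⊓ P.N).subgroupOf P.N).Normal := by
    constructor
    intro x hx n
    rw [Subgroup.mem_subgroupOf] at hx ⊢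
    refine ⟨?_, (n * x * n⁻¹).2⟩
    exact P.conj_mem n n.2 x hx
  letI : Fintype (G ⧸ P.B) := Fintype.ofFinite _
  haveI : Nonempty (G ⧸ P.B) := ⟨QuotientGroup.mk 1⟩
  obtain ⟨a, b, hab, hS⟩ := Nat.card_eq_two_iff.1 h2
  have hι : ∀ i : P.S, i = a ∨ i = b := by
    intro i
    have : i ∈ ({a, b} : Set P.S) := by rw [hS]; trivial
    simpa using this
  set g := weylGen P with hg
  have hinv : ∀ i, g i * g i = 1 := weylGen_inv
  have hE : Exchange g := weylGen_exchange
  have hne1 : ∀ i, g i ≠ 1 := by
    intro i h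
    have e : g i = (QuotientGroup.mk (⟨(i : G), P.subset i.2⟩ : P.N)) := rfl
    rw [e, show (1 : P.N ⧸ (P.B ⊓ P.N).subgroupOf P.N) = QuotientGroup.mk (1 : P.N) from rfl,
      mk_eq_iff] at h
    apply S_not_mem_B i.2
    have h3 : (i : G)⁻¹ ∈ P.B := by simpa using h
    simpa using P.B.inv_mem h3
  have hcard := dihedral_card (hinv a) (hinv b) (hne1 a) (hne1 b) weylGen_generates hι
  set m := orderOf (g a * g b) with hm
  have hm0 : 0 < m := orderOf_pos _
  have hm1 : m ≠ 1 := by
    intro h
    have h3 : g a * g b = 1 := orderOf_eq_one_iff.1 h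
    have h4 : g a = g b := by
      have := mul_eq_one_iff_eq_inv.1 h3
      rw [this, inv_eq_of_mul_eq_one_left (hinv b)]
    exact hab (weylGen_inj h4)
  have hm2 : 2 ≤ m := by omega
  have hpow : ∀ k, 0 < k → k < m → (g a * g b) ^ k ≠ 1 := fun k h3 h4 =>
    pow_ne_one_of_lt_orderOf h3.ne' h4
  have hred : ∀ k, k ≤ m → Reduced g (alt a b k) ∧ Reduced g (alt b a k) := by
    intro k hk
    exact alt_reduced hinv hE a b k (fun l h3 h4 => hpow l h3 (by omega))
  -- the matrices
  set A := tM P (a : G) with hA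
  set B := tM P (b : G) with hB
  have hwords : ∀ k, k ≤ m → altM A B k = tM P (wordG P (alt a b k)) ∧
      altM B A k = tM P (wordG P (alt b a k)) := by
    intro k
    induction k with
    | zero =>
      intro _
      simp only [altM, alt, wordG_nil, tM_one, and_self]
    | succ k ih =>
      intro hk
      obtain ⟨i1, i2⟩ := ih (by omega)
      obtain ⟨r1, r2⟩ := hred k (by omega)
      obtain ⟨r3, r4⟩ := hred (k + 1) hk
      constructor
      · show A * altM B A k = _
        rw [i2]
        exact word_step r3 r2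
      · show B * altM A B k = _
        rw [i1]
        exact word_step r4 r1
  have hnotB : ∀ (x y : P.S) (k : ℕ), 1 ≤ k → Reduced g (alt x y k) →
      wordG P (alt x y k) ∉ P.B := by
    intro x y k hk hr hmem
    have l1 := (reduced_iff _).1 hr
    have l2 := (len_eq_zero_iff (wordG_mem_N _)).2 hmem
    simp only [alt_length] at l1
    omega
  have hmth := hecke_thm (A := A) (B := B) (q₁ := qS P (a : G)) (q₂ := qS P (b : G))
    (two_le_qS a.2) (two_le_qS b.2) (tM_sq a.2) (tM_sq b.2) (mulVec_tM _) (mulVec_tM _)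
    (m := m) hm2
    (by
      rw [(hwords m le_rfl).1, (hwords m le_rfl).2]
      apply tM_congr
      have h3 : val g (alt a b m) = val g (alt b a m) :=
        altVal_eq_of_pow hinv (pow_orderOf_eq_one _)
      have h4 := val_weylGen_eq_iff.1 h3
      have h5 : wordG P (alt b a m) = wordG P (alt a b m) * ((wordG P (alt a b m))⁻¹ * wordG P (alt b a m)) := by
        group
      rw [h5]
      exact dc_mul_right_self h4)
    (by
      intro k h3 h4
      rw [(hwords k h4).1]
      exact trace_tM (hnotB a b k h3 (hred k h4).1))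
    (by
      intro k h3 h4
      rw [(hwords k h4).2]
      exact trace_tM (hnotB b a k h3 (hred k h4).2))
  have hidx : ((P.B ⊓ P.N).subgroupOf P.N).index = 2 * m := hcard
  rw [hidx]
  rcases hmth with h | h | h | h | h <;> rw [h] <;> simp

end Cfsg.Agent.Lib.FH
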