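import Cfsg.Agent.Lib.FH.Alg

set_option linter.unusedSimpArgs false
set_option linter.unusedSectionVars false

/-! Feit--Higman: the multiplicity identities at the level of matrices. -/

namespace Cfsg.Agent.Lib.FH

section Expand
variable {R : Type*} [Ring R] [Algebra ℝ R] {A B : R} {q₁ q₂ : ℝ}

theorem expand_even (hA : A * A = q₁ • 1 + (q₁ - 1) • A) (hB : B * B = q₂ • 1 + (q₂ - 1) • B)
    (k : ℕ) : ((A * B) ^ (k + 1) - (B * A) ^ (k + 1)) * (A * B - B * A)
      = (A * B) ^ (k + 2) + (B * A) ^ (k + 2)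
        - ((q₁ * q₂) • (A * B) ^ k + (q₂ * (q₁ - 1)) • ((A * B) ^ k * A)
            + (q₂ - 1) • ((A * B) ^ (k + 1) * A))
        - ((q₁ * q₂) • (B * A) ^ k + (q₁ * (q₂ - 1)) • ((B * A) ^ k * B)
            + (q₁ - 1) • ((B * A) ^ (k + 1) * B)) := by
  have a1 := hAA' hA hB
  have b1 := hBB' hA hB
  have e1 : (A * B) ^ (k + 1) * (A * B) = (A * B) ^ (k + 2) := (pow_succ _ _).symm
  have e2 : (B * A) ^ (k + 1) * (B * A) = (B * A) ^ (k + 2) := (pow_succ _ _).symm
  have e3 : (A * B) ^ (k + 1) * (B * A) = (q₁ * q₂) • (A * B) ^ k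
      + (q₂ * (q₁ - 1)) • ((A * B) ^ k * A) + (q₂ - 1) • ((A * B) ^ (k + 1) * A) := by
    rw [pow_succ (A * B) k]
    simp only [← mul_assoc, a1, b1, add_mul, smul_mul_assoc, smul_add, smul_smul]
    module
  have e4 : (B * A) ^ (k + 1) * (A * B) = (q₁ * q₂) • (B * A) ^ k
      + (q₁ * (q₂ - 1)) • ((B * A) ^ k * B) + (q₁ - 1) • ((B * A) ^ (k + 1) * B) := by
    rw [pow_succ (B * A) k]
    simp only [← mul_assoc, a1, b1, add_mul, smul_mul_assoc, smul_add, smul_smul]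
  rw [sub_mul, mul_sub, mul_sub, e1, e2, e3, e4]
  abel

theorem expand_odd (hA : A * A = q₁ • 1 + (q₁ - 1) • A) (hB : B * B = q₁ • 1 + (q₁ - 1) • B)
    (k : ℕ) : ((A * B) ^ k * A - (B * A) ^ k * B) * (A - B)
      = (q₁ • (A * B) ^ k + (q₁ - 1) • ((A * B) ^ k * A)) - (A * B) ^ (k + 1)
        - (B * A) ^ (k + 1) + (q₁ • (B * A) ^ k + (q₁ - 1) • ((B * A) ^ k * B)) := by
  have a1 := hAA' hA hB
  have b1 := hBB' hA hB
  have e1 : (A * B) ^ (k + 1) = (A * B) ^ k * A * B := by rw [pow_succ, mul_assoc]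
  have e2 : (B * A) ^ (k + 1) = (B * A) ^ k * B * A := by rw [pow_succ, mul_assoc]
  rw [e1, e2]
  simp only [sub_mul, mul_sub, a1, b1]
  abel

end Expand

section Mat
variable {X : Type*} [Fintype X] [DecidableEq X]

/-- Even case. -/
theorem mat_even {A B : Matrix X X ℝ} {q₁ q₂ : ℝ}
    (hA : A * A = q₁ • 1 + (q₁ - 1) • A) (hB : B * B = q₂ • 1 + (q₂ - 1) • B)
    {n : ℕ} (hn : 2 ≤ n) (hbr : (A * B) ^ n = (B * A) ^ n)
    (ht1 : ∀ k, 1 ≤ k → k ≤ n → ((A * B) ^ k).trace = 0)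
    (ht2 : ∀ k, 1 ≤ k → k ≤ n → ((B * A) ^ k).trace = 0)
    (ht3 : ∀ k, k < n → ((A * B) ^ k * A).trace = 0)
    (ht4 : ∀ k, k < n → ((B * A) ^ k * B).trace = 0)
    {y : ℝ} (hy : gS y (q₁ * q₂) 0 (n - 1) = 0)
    (hκ : ((y - (1 + q₁ * q₂)) * (y + (q₁ + q₂))) * sS y (q₁ * q₂) 0 y (n - 1) ≠ 0) :
    ∃ D : ℕ, (D : ℝ) * (((y - (1 + q₁ * q₂)) * (y + (q₁ + q₂))) * sS y (q₁ * q₂) 0 y (n - 1))
      = aS y (q₁ * q₂) (n - 1) * (-(2 * (q₁ * q₂)) * (Fintype.card X : ℝ)) := by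
  set Q := q₁ * q₂ with hQ
  set U := uU A B q₁ q₂ with hU
  set K := A * B - B * A with hK
  have hz : A * B * (A * B) = U * (A * B) - Q • 1 := z_sq hA hB
  have hz' : B * A * (B * A) = U * (B * A) - Q • 1 := z'_sq hA hB
  have hG : ∀ k, gS U Q 0 k * K = (A * B) ^ (k + 1) - (B * A) ^ (k + 1) := gS_even hz hz'
  have hk2 : K * K = (U - (1 + Q) • 1) * (U + (q₁ + q₂) • 1) := k_sq hA hB
  have htr : ∀ k, k + 2 ≤ n → (gS U Q 0 k * (K * K)).trace = -(2 * Q) * (if k = 0 then (Fintype.card X : ℝ) else 0) := by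
    intro k hk
    rw [← mul_assoc, hG, hK, expand_even hA hB k]
    simp only [Matrix.trace_sub, Matrix.trace_add, Matrix.trace_smul, smul_eq_mul]
    rw [ht1 (k + 2) (by omega) (by omega), ht2 (k + 2) (by omega) (by omega),
      ht3 k (by omega), ht4 k (by omega), ht3 (k + 1) (by omega), ht4 (k + 1) (by omega)]
    by_cases h0 : k = 0
    · subst h0
      simp [Matrix.trace_one]
      ring
    · rw [ht1 k (by omega) (by omega), ht2 k (by omega) (by omega)]
      simp [h0]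
  have htr0 : (K * K).trace = -(2 * Q) * (Fintype.card X : ℝ) := by
    have := htr 0 (by omega)
    simpa [gS] using this
  have := core U (K * K) Q 0 y ((y - (1 + Q)) * (y + (q₁ + q₂))) (n - 1) hy
    (by
      rw [← mul_assoc, hG, show n - 1 + 1 = n by omega, hbr, sub_self, zero_mul])
    (by
      intro P hP
      rw [hk2, mul_assoc, add_mul, smul_mul_assoc, one_mul, hP, ← add_smul, mul_smul_comm,
        sub_mul, hP, smul_mul_assoc, one_mul, ← sub_smul, smul_smul]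
      congr 1
      ring)
    (by
      intro k h1 h2
      rw [htr k (by omega)]
      simp [show k ≠ 0 by omega])
    hκ
  rw [htr0] at this
  exact this

/-- Odd case. -/
theorem mat_odd {A B : Matrix X X ℝ} {q : ℝ}
    (hA : A * A = q • 1 + (q - 1) • A) (hB : B * B = q • 1 + (q - 1) • B)
    {n : ℕ} (hn : 1 ≤ n) (hbr : (A * B) ^ n * A = (B * A) ^ n * B)
    (ht1 : ∀ k, 1 ≤ k → k ≤ n → ((A * B) ^ k).trace = 0)
    (ht2 : ∀ k, 1 ≤ k → k ≤ n → ((B * A) ^ k).trace = 0)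
    (ht3 : ∀ k, k < n → ((A * B) ^ k * A).trace = 0)
    (ht4 : ∀ k, k < n → ((B * A) ^ k * B).trace = 0)
    {y : ℝ} (hy : gS y (q * q) q n = 0)
    (hκ : (1 + q * q - y) * sS y (q * q) q y n ≠ 0) :
    ∃ D : ℕ, (D : ℝ) * ((1 + q * q - y) * sS y (q * q) q y n)
      = aS y (q * q) n * (2 * q * (Fintype.card X : ℝ)) := by
  set Q := q * q with hQ
  set U := uU A B q q with hU
  set K := A - B with hK
  have hz : A * B * (A * B) = U * (A * B) - Q • 1 := z_sq hA hB
  have hz' : B * A * (B * A) = U * (B * A) - Q • 1 := z'_sq hA hB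
  have hG : ∀ k, gS U Q q k * K = (A * B) ^ k * A - (B * A) ^ k * B :=
    gS_odd hz hz' (x1_odd hA hB)
  have hk2 : K * K = (1 + Q) • 1 - U := k_sq_odd hA hB
  have htr : ∀ k, k < n → (gS U Q q k * (K * K)).trace
      = (2 * q) * (if k = 0 then (Fintype.card X : ℝ) else 0) := by
    intro k hk
    rw [← mul_assoc, hG, hK, expand_odd hA hB k]
    simp only [Matrix.trace_sub, Matrix.trace_add, Matrix.trace_smul, smul_eq_mul]
    rw [ht1 (k + 1) (by omega) (by omega), ht2 (k + 1) (by omega) (by omega),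
      ht3 k (by omega), ht4 k (by omega)]
    by_cases h0 : k = 0
    · subst h0
      simp [Matrix.trace_one]
      ring
    · rw [ht1 k (by omega) (by omega), ht2 k (by omega) (by omega)]
      simp [h0]
  have htr0 : (K * K).trace = (2 * q) * (Fintype.card X : ℝ) := by
    have := htr 0 (by omega)
    simpa [gS] using this
  have := core U (K * K) Q q y (1 + Q - y) n hy
    (by
      rw [← mul_assoc, hG, hbr, sub_self, zero_mul])
    (by
      intro P hP
      rw [hk2, sub_mul, hP, smul_mul_assoc, one_mul, ← sub_smul])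
    (by
      intro k h1 h2
      rw [htr k (by omega)]
      simp [show k ≠ 0 by omega])
    hκ
  rw [htr0] at this
  exact this

end Mat

end Cfsg.Agent.Lib.FH
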