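import Cfsg.Agent.Lib.FH.Arith

set_option linter.unusedSimpArgs false
set_option linter.unusedSectionVars false

/-! Feit--Higman: the abstract matrix theorem. -/

namespace Cfsg.Agent.Lib.FH

open Real

variable {X : Type*} [Fintype X] [DecidableEq X]

/-- Alternating words. -/
def altM (A B : Matrix X X ℝ) : ℕ → Matrix X X ℝ
  | 0 => 1
  | k + 1 => A * altM B A k

theorem altM_even (A B : Matrix X X ℝ) : ∀ k, altM A B (2 * k) = (A * B) ^ k
  | 0 => by simp [altM]
  | k + 1 => by
      have h := altM_even A B k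
      have e : 2 * (k + 1) = 2 * k + 1 + 1 := by ring
      rw [e]
      simp only [altM]
      rw [h, pow_succ', mul_assoc]

theorem altM_odd (A B : Matrix X X ℝ) (k : ℕ) : altM A B (2 * k + 1) = (A * B) ^ k * A := by
  have e : altM A B (2 * k + 1) = A * altM B A (2 * k) := rfl
  rw [e, altM_even]
  have h : SemiconjBy A (B * A) (A * B) := by
    show A * (B * A) = A * B * A
    rw [mul_assoc]
  exact (h.pow_right k).eq

theorem mulVec_word {A B : Matrix X X ℝ} {a b : ℝ}
    (hA : A.mulVec (fun _ => 1) = fun _ => a) (hB : B.mulVec (fun _ => 1) = fun _ => b) (k : ℕ) :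
    ((A * B) ^ k * A).mulVec (fun _ => 1) = fun _ => (a * b) ^ k * a := by
  have hc : ∀ (M : Matrix X X ℝ) (c : ℝ), M.mulVec (fun _ => c) = c • M.mulVec (fun _ => 1) := by
    intro M c
    rw [← Matrix.mulVec_smul]
    congr 1
    ext
    simp
  have h : ((A * B) ^ k).mulVec (fun _ => 1) = fun _ => (a * b) ^ k := by
    induction k with
    | zero => simp [Matrix.one_mulVec]
    | succ k ih =>
      rw [pow_succ, ← Matrix.mulVec_mulVec, ← Matrix.mulVec_mulVec, hB, hc, hA, Matrix.mulVec_smul,
        hc, ih]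
      ext
      simp [pow_succ]
      ring
  rw [← Matrix.mulVec_mulVec, hA, hc, h]
  ext
  simp
  ring

/-- The abstract Feit--Higman theorem. -/
theorem hecke_thm [Nonempty X] {A B : Matrix X X ℝ} {q₁ q₂ : ℕ} (h1 : 2 ≤ q₁) (h2 : 2 ≤ q₂)
    (hA : A * A = (q₁ : ℝ) • 1 + ((q₁ : ℝ) - 1) • A)
    (hB : B * B = (q₂ : ℝ) • 1 + ((q₂ : ℝ) - 1) • B)
    (hAe : A.mulVec (fun _ => 1) = fun _ => (q₁ : ℝ))
    (hBe : B.mulVec (fun _ => 1) = fun _ => (q₂ : ℝ))
    {m : ℕ} (hm : 2 ≤ m) (hbr : altM A B m = altM B A m)
    (ht : ∀ k, 1 ≤ k → k ≤ m → (altM A B k).trace = 0)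
    (ht' : ∀ k, 1 ≤ k → k ≤ m → (altM B A k).trace = 0) :
    m = 2 ∨ m = 3 ∨ m = 4 ∨ m = 6 ∨ m = 8 := by
  have hN : 0 < Fintype.card X := Fintype.card_pos
  obtain ⟨n, hmn | hmn⟩ := Nat.even_or_odd' m
  · -- even
    subst hmn
    by_cases hn : 5 ≤ n
    · exfalso
      rw [altM_even, altM_even] at hbr
      have hq1 : (2 : ℝ) ≤ q₁ := by exact_mod_cast h1
      have hq2 : (2 : ℝ) ≤ q₂ := by exact_mod_cast h2
      refine even_final (N := Fintype.card X) (n := n) h1 h2 hN hn ?_
      intro j hj1 hjn
      exact even_key (X := X) hq1 hq2 hA hB (by omega) hbr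
        (fun k h3 h4 => by
          rw [← altM_even]; exact ht _ (by omega) (by omega))
        (fun k h3 h4 => by
          rw [← altM_even]; exact ht' _ (by omega) (by omega))
        (fun k h3 => by
          rw [← altM_odd]; exact ht _ (by omega) (by omega))
        (fun k h3 => by
          rw [← altM_odd]; exact ht' _ (by omega) (by omega))
        hj1 hjn
    · omega
  · -- odd
    subst hmn
    by_cases hn : 2 ≤ n
    · exfalso
      rw [altM_odd, altM_odd] at hbr
      -- the parameters agree
      have hq : q₁ = q₂ := by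
        have e1 := mulVec_word hAe hBe n
        have e2 := mulVec_word hBe hAe n
        rw [hbr, e2] at e1
        have x0 : X := Classical.arbitrary X
        have e3 := congrFun e1 x0
        have hpos : ((q₂ : ℝ) * q₁) ^ n ≠ 0 := by positivity
        rw [mul_comm (q₁ : ℝ) (q₂ : ℝ)] at e3
        have := mul_left_cancel₀ hpos e3
        exact_mod_cast this.symm
      subst hq
      have hq1 : (2 : ℝ) ≤ q₁ := by exact_mod_cast h1
      obtain ⟨D, hD⟩ := odd_key (X := X) hq1 hA hB (n := n) (by omega) hbr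
        (fun k h3 h4 => by
          rw [← altM_even]; exact ht _ (by omega) (by omega))
        (fun k h3 h4 => by
          rw [← altM_even]; exact ht' _ (by omega) (by omega))
        (fun k h3 => by
          rw [← altM_odd]; exact ht _ (by omega) (by omega))
        (fun k h3 => by
          rw [← altM_odd]; exact ht' _ (by omega) (by omega))
      exact odd_final h1 hN hn hD
    · omega

end Cfsg.Agent.Lib.FH
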