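import Cfsg.Agent.Lib.FH.Mat

set_option linter.unusedSimpArgs false
set_option linter.unusedSectionVars false

/-! Feit--Higman: closed forms for the recurrences. -/

namespace Cfsg.Agent.Lib.FH

open Real

theorem sin_rec (φ : ℝ) (k : ℕ) : sin (((k + 2 : ℕ) : ℝ) * φ)
    = 2 * cos φ * sin (((k + 1 : ℕ) : ℝ) * φ) - sin ((k : ℝ) * φ) := by
  have e1 : ((k + 2 : ℕ) : ℝ) * φ = ((k + 1 : ℕ) : ℝ) * φ + φ := by push_cast; ring
  have e2 : (k : ℝ) * φ = ((k + 1 : ℕ) : ℝ) * φ - φ := by push_cast; ring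
  rw [e1, e2, sin_add, sin_sub]; ring

theorem cos_rec (φ : ℝ) (k : ℕ) : cos (((k + 2 : ℕ) : ℝ) * φ)
    = 2 * cos φ * cos (((k + 1 : ℕ) : ℝ) * φ) - cos ((k : ℝ) * φ) := by
  have e1 : ((k + 2 : ℕ) : ℝ) * φ = ((k + 1 : ℕ) : ℝ) * φ + φ := by push_cast; ring
  have e2 : (k : ℝ) * φ = ((k + 1 : ℕ) : ℝ) * φ - φ := by push_cast; ring
  rw [e1, e2, cos_add, cos_sub]; ring

theorem cos_step (φ : ℝ) (k : ℕ) : cos ((k : ℝ) * φ)
    = cos (((k + 1 : ℕ) : ℝ) * φ) * cos φ + sin (((k + 1 : ℕ) : ℝ) * φ) * sin φ := by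
  have e2 : (k : ℝ) * φ = ((k + 1 : ℕ) : ℝ) * φ - φ := by push_cast; ring
  rw [e2, cos_sub]

theorem aS_closed (r φ : ℝ) : ∀ k, aS (2 * r * cos φ) (r * r) k * (r * sin φ)
    = r ^ k * sin ((k : ℝ) * φ)
  | 0 => by simp [aS]
  | 1 => by simp [aS]
  | k + 2 => by
      have h1 := aS_closed r φ (k + 1)
      have h0 := aS_closed r φ k
      simp only [aS]
      rw [sin_rec, pow_succ r (k + 1), pow_succ r k]
      rw [pow_succ r k] at h1
      linear_combination (2 * r * cos φ) * h1 - (r * r) * h0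

/-- `g k = a (k+1)` in the even case. -/
theorem gS_zero_eq (y Q : ℝ) : ∀ k, gS y Q 0 k = aS y Q (k + 1)
  | 0 => by simp [gS, aS]
  | 1 => by simp [gS, aS]
  | k + 2 => by
      have h1 := gS_zero_eq y Q (k + 1)
      have h0 := gS_zero_eq y Q k
      simp only [gS, aS, smul_eq_mul] at *
      rw [h1, h0]

theorem sS_even_closed (r φ : ℝ) : ∀ n, sS (2 * r * cos φ) (r * r) 0 (2 * r * cos φ) n
      * (2 * r * sin φ ^ 3)
    = r ^ n * (sin (((n + 1 : ℕ) : ℝ) * φ) * cos φ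
        - ((n + 1 : ℕ) : ℝ) * cos (((n + 1 : ℕ) : ℝ) * φ) * sin φ)
  | 0 => by simp [sS]; ring
  | 1 => by
      simp only [sS]
      have h : (((1 + 1 : ℕ) : ℝ)) * φ = φ + φ := by push_cast; ring
      rw [h, sin_add, cos_add]
      push_cast
      have := sin_sq_add_cos_sq φ
      ring
  | n + 2 => by
      have h1 := sS_even_closed r φ (n + 1)
      have h0 := sS_even_closed r φ n
      have hg : aS (2 * r * cos φ) (r * r) (n + 2) * (r * sin φ)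
          = r ^ (n + 2) * sin (((n + 1 + 1 : ℕ) : ℝ) * φ) := aS_closed r φ (n + 2)
      have e : sS (2 * r * cos φ) (r * r) 0 (2 * r * cos φ) (n + 2)
          = (2 * r * cos φ) * sS (2 * r * cos φ) (r * r) 0 (2 * r * cos φ) (n + 1)
            - (r * r) * sS (2 * r * cos φ) (r * r) 0 (2 * r * cos φ) n
            + aS (2 * r * cos φ) (r * r) (n + 2) := by
        simp only [sS, smul_eq_mul, gS_zero_eq]
      rw [e]
      have hs := sin_rec φ (n + 1)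
      have hc := cos_rec φ (n + 1)
      have hst := cos_step φ (n + 1)
      show _ = r ^ (n + 2) * (sin (((n + 1 + 2 : ℕ) : ℝ) * φ) * cos φ
        - ((n + 1 + 2 : ℕ) : ℝ) * cos (((n + 1 + 2 : ℕ) : ℝ) * φ) * sin φ)
      generalize sin (((n + 1 + 2 : ℕ) : ℝ) * φ) = s₂ at *
      generalize cos (((n + 1 + 2 : ℕ) : ℝ) * φ) = c₂ at *
      generalize sin (((n + 1 + 1 : ℕ) : ℝ) * φ) = s₁ at *
      generalize cos (((n + 1 + 1 : ℕ) : ℝ) * φ) = c₁ at *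
      generalize sin (((n + 1 : ℕ) : ℝ) * φ) = s₀ at *
      generalize cos (((n + 1 : ℕ) : ℝ) * φ) = c₀ at *
      generalize sS (2 * r * cos φ) (r * r) 0 (2 * r * cos φ) (n + 1) = S1 at *
      generalize sS (2 * r * cos φ) (r * r) 0 (2 * r * cos φ) n = S0 at *
      generalize aS (2 * r * cos φ) (r * r) (n + 2) = a at *
      push_cast at h1 h0 ⊢
      linear_combination (2 * r * cos φ) * h1 - (r * r) * h0 + (2 * sin φ ^ 2) * hg
        - r ^ (n + 2) * (cos φ * hs - ((n : ℝ) + 3) * sin φ * hc + 2 * sin φ * hst)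

/-! ### The odd case -/

theorem sin_rec2 (ψ : ℝ) (k : ℕ) : sin (((2 * (k + 2) + 1 : ℕ) : ℝ) * ψ)
    = 2 * cos (2 * ψ) * sin (((2 * (k + 1) + 1 : ℕ) : ℝ) * ψ) - sin (((2 * k + 1 : ℕ) : ℝ) * ψ) := by
  have e1 : ((2 * (k + 2) + 1 : ℕ) : ℝ) * ψ = ((2 * (k + 1) + 1 : ℕ) : ℝ) * ψ + 2 * ψ := by
    push_cast; ring
  have e2 : ((2 * k + 1 : ℕ) : ℝ) * ψ = ((2 * (k + 1) + 1 : ℕ) : ℝ) * ψ - 2 * ψ := by
    push_cast; ring
  rw [e1, e2, sin_add, sin_sub]; ring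

theorem cos_rec2 (ψ : ℝ) (k : ℕ) : cos (((2 * (k + 2) + 1 : ℕ) : ℝ) * ψ)
    = 2 * cos (2 * ψ) * cos (((2 * (k + 1) + 1 : ℕ) : ℝ) * ψ) - cos (((2 * k + 1 : ℕ) : ℝ) * ψ) := by
  have e1 : ((2 * (k + 2) + 1 : ℕ) : ℝ) * ψ = ((2 * (k + 1) + 1 : ℕ) : ℝ) * ψ + 2 * ψ := by
    push_cast; ring
  have e2 : ((2 * k + 1 : ℕ) : ℝ) * ψ = ((2 * (k + 1) + 1 : ℕ) : ℝ) * ψ - 2 * ψ := by
    push_cast; ring
  rw [e1, e2, cos_add, cos_sub]; ring

theorem cos_step2 (ψ : ℝ) (k : ℕ) : cos (((2 * k + 1 : ℕ) : ℝ) * ψ)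
    = cos (((2 * (k + 1) + 1 : ℕ) : ℝ) * ψ) * cos (2 * ψ)
      + sin (((2 * (k + 1) + 1 : ℕ) : ℝ) * ψ) * sin (2 * ψ) := by
  have e2 : ((2 * k + 1 : ℕ) : ℝ) * ψ = ((2 * (k + 1) + 1 : ℕ) : ℝ) * ψ - 2 * ψ := by
    push_cast; ring
  rw [e2, cos_sub]

theorem gS_odd_closed (q ψ : ℝ) : ∀ k, gS (2 * q * cos (2 * ψ)) (q * q) q k * sin ψ
    = q ^ k * sin (((2 * k + 1 : ℕ) : ℝ) * ψ)
  | 0 => by simp [gS]
  | 1 => by
      simp only [gS, smul_eq_mul, mul_one]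
      have e : ((2 * 1 + 1 : ℕ) : ℝ) * ψ = 2 * ψ + ψ := by push_cast; ring
      rw [e, sin_add, sin_two_mul, cos_two_mul]
      ring
  | k + 2 => by
      have h1 := gS_odd_closed q ψ (k + 1)
      have h0 := gS_odd_closed q ψ k
      simp only [gS, smul_eq_mul]
      rw [sin_rec2]
      generalize sin (((2 * (k + 1) + 1 : ℕ) : ℝ) * ψ) = a at *
      generalize sin (((2 * k + 1 : ℕ) : ℝ) * ψ) = b at *
      linear_combination (2 * q * cos (2 * ψ)) * h1 - (q * q) * h0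

theorem sS_odd_closed (q ψ : ℝ) : ∀ n, sS (2 * q * cos (2 * ψ)) (q * q) q (2 * q * cos (2 * ψ)) n
      * (4 * q * sin (2 * ψ) * sin ψ ^ 2)
    = q ^ n * (sin ((n : ℝ) * (2 * ψ))
        - 2 * (n : ℝ) * sin ψ * cos (((2 * n + 1 : ℕ) : ℝ) * ψ))
  | 0 => by simp [sS]
  | 1 => by
      simp only [sS]
      have e : ((2 * 1 + 1 : ℕ) : ℝ) * ψ = 2 * ψ + ψ := by push_cast; ring
      rw [e, cos_add]
      push_cast
      simp only [one_mul]
      rw [sin_two_mul, cos_two_mul]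
      have := sin_sq_add_cos_sq ψ
      have h2 : cos ψ ^ 2 = 1 - sin ψ ^ 2 := by linarith
      ring_nf
      rw [show cos ψ ^ 3 = cos ψ ^ 2 * cos ψ by ring, h2]
      ring
  | n + 2 => by
      have h1 := sS_odd_closed q ψ (n + 1)
      have h0 := sS_odd_closed q ψ n
      have hg := gS_odd_closed q ψ (n + 1)
      have e : sS (2 * q * cos (2 * ψ)) (q * q) q (2 * q * cos (2 * ψ)) (n + 2)
          = (2 * q * cos (2 * ψ)) * sS (2 * q * cos (2 * ψ)) (q * q) q (2 * q * cos (2 * ψ)) (n + 1)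
            - (q * q) * sS (2 * q * cos (2 * ψ)) (q * q) q (2 * q * cos (2 * ψ)) n
            + gS (2 * q * cos (2 * ψ)) (q * q) q (n + 1) := by
        simp only [sS, smul_eq_mul]
      rw [e]
      have hs := sin_rec (2 * ψ) n
      have hc := cos_rec2 ψ n
      have hst := cos_step2 ψ n
      generalize sin (((n + 2 : ℕ) : ℝ) * (2 * ψ)) = a₂ at *
      generalize sin (((n + 1 : ℕ) : ℝ) * (2 * ψ)) = a₁ at *
      generalize sin ((n : ℝ) * (2 * ψ)) = a₀ at *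
      generalize cos (((2 * (n + 2) + 1 : ℕ) : ℝ) * ψ) = C₂ at *
      generalize cos (((2 * (n + 1) + 1 : ℕ) : ℝ) * ψ) = C₁ at *
      generalize cos (((2 * n + 1 : ℕ) : ℝ) * ψ) = C₀ at *
      generalize sin (((2 * (n + 1) + 1 : ℕ) : ℝ) * ψ) = S₁ at *
      generalize sS (2 * q * cos (2 * ψ)) (q * q) q (2 * q * cos (2 * ψ)) (n + 1) = T1 at *
      generalize sS (2 * q * cos (2 * ψ)) (q * q) q (2 * q * cos (2 * ψ)) n = T0 at *
      generalize gS (2 * q * cos (2 * ψ)) (q * q) q (n + 1) = g at *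
      push_cast at h1 h0 ⊢
      linear_combination (2 * q * cos (2 * ψ)) * h1 - (q * q) * h0
        + (4 * q * sin (2 * ψ) * sin ψ) * hg
        + q ^ (n + 2) * (-hs + 2 * ((n : ℝ) + 2) * sin ψ * hc - 4 * sin ψ * hst)

end Cfsg.Agent.Lib.FH
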